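import Cfsg.Agent.H14.Mn26

/-!
# Reduction modulo 2 of the 4371-dimensional module of the Baby Monster
-/

set_option autoImplicit false

namespace H14.Mn

open Cfsg Finset H15 Matrix H19 H0 H0.Mo H14.Mj MulAction
open scoped Kronecker commutatorElement Pointwise

attribute [-simp] Fintype.sum_option
attribute [local irreducible] Fintype.piFinset

theorem alt_even {m : ℕ} {A : Matrix (Fin m) (Fin m) ℤ} (hs : ∀ i j, A i j = A j i) (he : ∀ i, Even (A i i))
    (h : (A.map (Int.castRingHom (ZMod 2))).det ≠ 0) : Even m := by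
  by_contra o
  let A' : Matrix (Fin m) (Fin m) ℤ := of fun i j => if i < j then A i j else if j < i then -A i j else 0
  have e1 : A'.map (Int.castRingHom (ZMod 2)) = A.map (Int.castRingHom (ZMod 2)) := by
    ext i j
    simp only [A', map_apply, of_apply]
    split_ifs with a b
    · rfl
    · simp
    · obtain rfl : i = j := by omega
      simpa using ((ZMod.intCast_eq_zero_iff_even).2 (he i)).symm
  have e2 : A'ᵀ = -A' := by
    ext i j
    simp only [A', transpose_apply, of_apply, neg_apply]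
    split_ifs with a b c d e <;> first | omega | simp [hs i j]
  have e3 : A'.det = 0 := by
    have := det_transpose A'
    rw [e2, det_neg, Fintype.card_fin, (Nat.not_even_iff_odd.1 o).neg_one_pow] at this
    omega
  apply h
  rw [← e1, ← RingHom.mapMatrix_apply, ← RingHom.map_det, e3, map_zero]

theorem mod2 {Γ X : Type*} [Group Γ] [MulAction Γ X] [Finite X] (b : X → X → ℤ) (hs : ∀ x y, b x y = b y x)
    (hi : ∀ (g : Γ) x y, b (g • x) (g • y) = b x y) (he : ∀ x, Even (b x x)) {n : ℕ} (hn : Even n)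
    (hd : ∀ m (v : Fin m → X), (Matrix.of fun i j => b (v i) (v j)).det ≠ 0 → m ≤ n + 1) :
    ∃ σ : Γ →* GL (Fin n) (ZMod 2), (∀ g, (∀ x : X, g • x = x) → σ g = 1) ∧
      ∀ g, σ g = 1 → ∀ x y, (b (g • x) y : ZMod 2) = b x y := by
  let φ : X → X → ZMod 2 := fun x y => b x y
  let M := Submodule.span (ZMod 2) (Set.range φ)
  let a : Γ → Module.End (ZMod 2) (X → ZMod 2) := fun g => LinearMap.funLeft _ _ fun x => g⁻¹ • x
  have aφ : ∀ g x, a g (φ x) = φ (g • x) := fun g x => funext fun y => by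
    change (b x (g⁻¹ • y) : ZMod 2) = b (g • x) y
    rw [← hi g, smul_inv_smul]
  have aM : ∀ g, ∀ v ∈ M, a g v ∈ M := fun g v h => Submodule.span_induction
    (by rintro _ ⟨x, rfl⟩; exact aφ g x ▸ Submodule.subset_span ⟨_, rfl⟩) (by simp)
    (fun _ _ _ _ p q => by rw [map_add]; exact add_mem p q) (fun c _ _ p => by rw [map_smul]; exact M.smul_mem c p) h
  have dm : Module.finrank (ZMod 2) M ≤ n := by
    obtain ⟨f, f1, f2, f3⟩ := Submodule.exists_fun_fin_finrank_span_eq (ZMod 2) (Set.range φ)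
    choose v hv using f1
    let A : Matrix _ _ ℤ := Matrix.of fun i j => b (v i) (v j)
    have nz : (A.map (Int.castRingHom (ZMod 2))).det ≠ 0 := fun c => by
      obtain ⟨w, w0, w1⟩ := Matrix.exists_vecMul_eq_zero_iff.2 c
      refine w0 (funext (Fintype.linearIndependent_iff.1 f3 w (funext fun y => ?_)))
      have : φ y ∈ Submodule.span (ZMod 2) (Set.range f) := by rw [f2]; exact Submodule.subset_span ⟨_, rfl⟩
      obtain ⟨d, hd⟩ := (Submodule.mem_span_range_iff_exists_fun _).1 this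
      have k : ∀ i, f i y = ∑ j, d j * (b (v i) (v j) : ZMod 2) := fun i => by
        rw [← hv i]
        change (b (v i) y : ZMod 2) = _
        rw [hs]
        change φ y (v i) = _
        rw [← hd, Finset.sum_apply]
        exact sum_congr rfl fun j _ => by rw [← hv j, hs (v i)]; rfl
      simp only [Finset.sum_apply, Pi.smul_apply, smul_eq_mul, k, mul_sum, Pi.zero_apply]
      rw [sum_comm]
      refine sum_eq_zero fun j _ => ?_
      have := congrFun w1 j
      simp only [vecMul, dotProduct, map_apply, A, of_apply, Pi.zero_apply, eq_intCast] at this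
      rw [← mul_zero (d j), ← this, mul_sum]
      exact sum_congr rfl fun i _ => by ring
    have h1 := hd _ v fun c => nz (by rw [← RingHom.mapMatrix_apply, ← RingHom.map_det, c, map_zero])
    have h2 := alt_even (A := A) (fun i j => hs _ _) (fun i => he _) nz
    obtain ⟨k, e⟩ := h2
    obtain ⟨l, e'⟩ := hn
    change Module.finrank (ZMod 2) M = _ at e
    change Module.finrank (ZMod 2) M ≤ _ at h1
    omega
  let W := M × (Fin (n - Module.finrank (ZMod 2) M) → ZMod 2)
  have dW : Module.finrank (ZMod 2) W = n := by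
    rw [Module.finrank_prod, Module.finrank_fin_fun]; omega
  let ρ : Γ →* Module.End (ZMod 2) W :=
    { toFun g := ((a g).restrict (aM g)).prodMap LinearMap.id
      map_one' := LinearMap.ext fun w => Prod.ext (Subtype.ext (funext fun x => by simp [a])) rfl
      map_mul' g h := LinearMap.ext fun w => Prod.ext (Subtype.ext (funext fun x => by simp [a, mul_smul])) rfl }
  let e := LinearMap.toMatrixAlgEquiv (Module.finBasisOfFinrankEq (ZMod 2) W dW)
  refine ⟨(e.toMulEquiv.toMonoidHom.comp ρ).toHomUnits, fun g h => Units.ext ?_, fun g h x y => ?_⟩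
  · change e (ρ g) = 1
    rw [show ρ g = 1 from LinearMap.ext fun w => Prod.ext (Subtype.ext (funext fun x => by
      change w.1.1 (g⁻¹ • x) = w.1.1 x
      rw [inv_smul_eq_iff.2 (h x).symm])) rfl, map_one]
  · have : ρ g = 1 := e.injective ((congrArg Units.val h).trans (map_one e).symm)
    have := congrArg (fun w : W => w.1.1 y) (LinearMap.congr_fun this (⟨φ x, Submodule.subset_span ⟨_, rfl⟩⟩, 0))
    exact (congrFun (aφ g x) y).symm.trans this

theorem gram_le {W : Type*} [AddCommGroup W] [Module ℝ W] [Module.Finite ℝ W] (B : LinearMap.BilinForm ℝ W)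
    (U : Submodule ℝ W) {m : ℕ} (p : Fin m → W) (hp : ∀ i, p i ∈ U) {A : Matrix (Fin m) (Fin m) ℤ} (h : A.det ≠ 0)
    (e : ∀ i j, (A i j : ℝ) = 16 * B (p i) (p j)) : m ≤ Module.finrank ℝ U := by
  have : LinearIndependent ℝ fun i => (⟨p i, hp i⟩ : U) := Fintype.linearIndependent_iff.2 fun c k =>
    congrFun (Matrix.eq_zero_of_vecMul_eq_zero (M := A.map (Int.castRingHom ℝ))
      (by rw [← RingHom.mapMatrix_apply, ← RingHom.map_det]; simpa using h) (funext fun j => by
        have := congrArg (fun w : U => 16 * B w.1 (p j)) k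
        simp only [Submodule.coe_sum, map_sum, LinearMap.sum_apply, Submodule.coe_smul, map_smul, LinearMap.smul_apply,
          smul_eq_mul, Submodule.coe_zero, map_zero, LinearMap.zero_apply, mul_zero, mul_sum] at this
        simp only [vecMul, dotProduct, map_apply, Pi.zero_apply, eq_intCast, ← this]
        exact sum_congr rfl fun i _ => by rw [e]; ring))
  simpa using this.fintype_card_le_finrank

theorem proj_tr {W : Type*} [AddCommGroup W] [Module ℝ W] [Module.Finite ℝ W] {U : Submodule ℝ W} {f : W →ₗ[ℝ] W}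
    (h : LinearMap.IsProj U f) : LinearMap.trace ℝ W f = Module.finrank ℝ U := h.trace

variable {x y : V}

theorem dim4 : Module.finrank ℝ (Module.End.eigenspace (ml a0) (1 / 4 : ℝ)) = 4371 := by
  have p : LinearMap.IsProj (Module.End.eigenspace (ml a0) (1 / 4 : ℝ)) (P4 a0) :=
    ⟨fun v => Module.End.mem_eigenspace_iff.2 (P4_spec a0_mem v).1, fun v h => by
      have h := Module.End.mem_eigenspace_iff.1 h
      refine sub_eq_zero.1 (amb.zero ?_)
      have k := (P4_spec a0_mem v).2 (P4 a0 v - v) (by rw [map_sub, smul_sub, h, (P4_spec a0_mem v).1])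
      rw [map_sub, k, sub_self]⟩
  have := proj_tr p
  rw [show LinearMap.trace ℝ V (P4 a0) = 4371 from tr_P40] at this
  exact_mod_cast this.symm

noncomputable def b16 (x y : V) : ℤ := ⌊16 * Bf (pv a0 x) (pv a0 y)⌋

theorem b16_of {n : ℤ} (h : 16 * Bf (pv a0 x) (pv a0 y) = n) : b16 x y = n := by rw [b16, h, Int.floor_intCast]

theorem b16_self (h : Dn a0 x) : b16 x x = 28 := b16_of (by rw [h.pn]; norm_num)

theorem b16_eq (h : Dn a0 x) (k : Dn a0 y) : (b16 x y : ℝ) = 16 * Bf (pv a0 x) (pv a0 y) := by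
  have : ∃ n : ℤ, 16 * Bf (pv a0 x) (pv a0 y) = n := by
    rw [h.pp k]
    rcases cat h k with rfl | rfl | ⟨a, b⟩ | ⟨a, b⟩ | ⟨a, b, -⟩ | ⟨a, b, -⟩ | ⟨a, b, -⟩ | ⟨a, b, -⟩
    · exact ⟨28, by rw [Xa_norm h.hx, h.sg'.c]; norm_num⟩
    · exact ⟨-28, by rw [h.ss, Xa_norm h.hx, h.sg'.c]; norm_num⟩
    · exact ⟨4, by rw [a, b]; norm_num⟩
    · exact ⟨-4, by rw [a, b]; norm_num⟩
    · exact ⟨0, by rw [a, b]; norm_num⟩
    · exact ⟨1, by rw [a, b]; norm_num⟩
    · exact ⟨-1, by rw [a, b]; norm_num⟩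
    · exact ⟨0, by rw [a, b]; norm_num⟩
  obtain ⟨n, e⟩ := this
  rw [b16_of e, e]

def XD : SubMulAction C[tt a0] V := ⟨{y | Dn a0 y}, fun g _ h => Dn.smul h (mem_St.2 g.2)⟩

theorem rep_B : ∃ H : Subgroup (GL (Fin 4370) (ZMod 2)), Nonempty (Bm ≃* H) := by
  have : Finite XD := (Xa_fin.subset fun _ h => Dn.hx h).to_subtype
  obtain ⟨σ, s1, s2⟩ := mod2 (Γ := C[tt a0]) (X := XD) (fun x y => b16 x y) (fun x y => by simp only [b16, amb.symm (pv a0 x)])
    (fun g x y => by
      change b16 (g.1 • x.1) (g.1 • y.1) = _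
      have : g.1 • a0 = a0 := mem_St.2 g.2
      rw [b16, b16, ← Bf_smul g.1 (pv a0 x), pv_smul, pv_smul, this])
    (fun x => by rw [b16_self x.2]; decide) (n := 4370) (by decide) fun m v h => (gram_le Bf _ (fun i => pv a0 (v i))
      (fun i => Module.End.mem_eigenspace_iff.2 (Dn.eig (v i).2)) h fun i j => b16_eq (v i).2 (v j).2).trans dim4.le
  let ψ : Bm →* GL (Fin 4370) (ZMod 2) := QuotientGroup.lift _ σ fun g h => by
    rcases πB_one.1 ((QuotientGroup.eq_one_iff g).2 h) with e | e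
    · rw [show g = 1 from Subtype.ext e]; exact one_mem _
    · exact s1 g fun x => Subtype.ext (by change g.1 • x.1 = x.1; rw [e]; exact (Dn.symm x.2).fix)
  refine ⟨ψ.range, ⟨MonoidHom.ofInjective ((MonoidHom.ker_eq_bot_iff ψ).1 ((Subgroup.Normal.eq_bot_or_eq_top inferInstance).resolve_right
    fun c => ?_))⟩⟩
  have hx := D_s0 (ε := 0)
  obtain ⟨y, k, e⟩ := exists_nb (c := 5 / 256) (by rw [(solB hx).2.2]; decide)
  have e1 : Bf (av 0 s0) (tt y • av 0 s0) = 13 / 256 := by
    rcases cat hx k with rfl | rfl | ⟨a, b⟩ | ⟨a, b⟩ | ⟨a, b, -⟩ | ⟨a, b, -⟩ | ⟨-, -, a, -⟩ | ⟨a, b, -⟩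
    · rw [Xa_norm hx.hx] at e; norm_num at e
    · rw [hx.sg'.c] at e; norm_num at e
    all_goals first | exact a | (rw [a] at e; norm_num at e)
  have := s2 ⟨tt y, mem_St.1 k.fix⟩ (show ψ (tB k) = 1 from (MonoidHom.mem_ker (f := ψ)).1 (by rw [c]; trivial)) ⟨_, hx⟩ ⟨_, hx⟩
  change (b16 (tt y • av 0 s0) (av 0 s0) : ZMod 2) = b16 (av 0 s0) (av 0 s0) at this
  rw [b16_self hx, b16_of (n := 1) (by rw [amb.symm, hx.pp (hx.act k), e1, (lp hx (hx.act k)).1 e1]; norm_num)] at this
  exact absurd this (by decide)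

end H14.Mn
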