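/-
S2935, chunks `W3` and `W2`.
-/
import Cfsg.Agent.H20.EF5
import Cfsg.Agent.H11.StTwo

set_option autoImplicit false
set_option linter.unusedSectionVars false

namespace H14.EF
open Cfsg H14 H14.RootSys H14.St H14.PreSt H11 H27.ID Function H20.EF

section
variable {ι κ : Type} [Fintype κ] [DecidableEq κ] [Fintype ι] [DecidableEq ι] {R : RootSys ι κ}
  {C : Chev R} {K G : Type} [Field K] [Group G] {S : St C K G} {F : S.Fr} {p q : ℕ} [hp : Fact p.Prime] [CharP K p] [IsAlgClosed K]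
  {a b β : ι} {v : K} {Y : Subgroup G} (h : Hy F p q)
include h

theorem ns (e : R.pair a b = 1) : ¬ R.IsSum a b := fun s => by
  have := h.two a (R.neg (R.plus a b))
  rw [pair_neg_right, s.pair_plus, pair_self] at this
  omega

theorem cm1 (e : R.pair a b = 1) (t u : K) : Commute (S.x a t) (S.x b u) :=
  S.commute_of_not (by rintro rfl; simp at e) (ns h e) t u

theorem rho1 (e : R.pair a b = -2) (n : b ≠ R.neg a) : F.ρ = 1 := h.lace.resolve_right fun c => by have := c a b n; omega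

theorem pm1 (e : R.pair a b = -2) (n : b ≠ R.neg a) : R.pair b a = -1 := by
  have := R.pair_mul_pair_lt (r := a) (s := b) (by rintro rfl; simp at e) n
  have := (R.pair_neg_iff a b).1 (by omega)
  nlinarith

/-- the commutator relation of a short root `a` and a long root `b` at an obtuse angle -/
theorem b2 (e : R.pair a b = -2) (n : b ≠ R.neg a) : ∃ ε η : K, ε ≠ 0 ∧ η * η = 1 ∧ ∀ t u, S.x b u * S.x a t =
    S.x a t * S.x b u * (S.x (R.refl b a) (ε * t * u) * S.x (R.refl a b) (η * t ^ 2 * u)) := by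
  have e' := pm1 h e n
  have d := R.d_pair a b
  rw [e, e'] at d
  obtain ⟨c, -, hd⟩ := h.ok.ex
  have := R.d_pos a
  have da : R.d a = 1 := by rcases hd a with x | x <;> rcases hd b with y | y <;> omega
  have c2 : c = 2 := by rcases hd b with y | y <;> omega
  have p1 : R.pair (R.refl a b) a = 1 := by rw [← pair_refl_refl R a, refl_refl, refl_self, pair_neg_right, e']; rfl
  obtain ⟨-, h1, h2, h3⟩ := terms_long C (c2 ▸ hd) (l := R.refl a b) (by rw [R.d_refl]; omega) da p1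
  rw [refl_refl] at h1 h2 h3
  have k : ∀ z : ℤ, z.natAbs = 1 → (z : K) * z = 1 := fun z hz => by
    rcases Int.natAbs_eq_iff.1 hz with rfl | rfl <;> simp
  refine ⟨-C.N a b, C.M2 a b, neg_ne_zero.2 (left_ne_zero_of_mul_eq_one (k _ h1)), k _ h2, fun t u => ?_⟩
  rw [S.comm' n, h3, show R.neg (R.refl (R.refl a b) a) = R.refl b a from R.cf_inj (by
    rw [cf_neg, cf_refl, cf_refl, cf_refl, p1, e, e']; module)]
  simp [PreChev.tval]

theorem fix_mul (e : F.ρ β = β) (hv : S.x β v ∈ F.fix) {c : K} (hc : c ^ q = c) : S.x β (c * v) ∈ F.fix :=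
  (h.x_fix e).2 (by rw [mul_pow, hc, mul_left_comm, (h.x_fix e).1 hv])

theorem fix_div (e : F.ρ β = β) (hv : S.x β v ∈ F.fix) (v0 : v ≠ 0) {t : K} (ht : S.x β t ∈ F.fix) : (t / v) ^ q = t / v := by
  have a := (h.x_fix e).1 hv
  have b := (h.x_fix e).1 ht
  rw [div_pow, div_eq_div_iff (pow_ne_zero _ v0) v0]
  exact mul_left_cancel₀ (F.c_ne β) (by linear_combination v * b - t * a)

theorem ex_fix (e : F.ρ β = β) : ∃ v, v ≠ 0 ∧ S.x β v ∈ F.fix :=
  (exists_sol (F.c_ne β) h.lt).imp fun _ k => ⟨k.1, (h.x_fix e).2 k.2⟩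

theorem mem_Xf (hv : S.x β v ∈ F.fix) : S.x β v ∈ Xf F β := ⟨x_mem_U (by exact ⟨0, rfl⟩) _, hv⟩

theorem Xf_le (e : F.ρ β = β) (v0 : v ≠ 0) (k : ∀ c, c ^ q = c → S.x β (c * v) ∈ Y ⊓ F.fix) : Xf F β ≤ Y := fun g hg => by
  rw [Xf_one e] at hg
  obtain ⟨t, rfl⟩ := mem_U_singleton.1 hg.1
  simpa [v0] using (k _ (fix_div h e (by simpa using (k 1 (one_pow _)).2) v0 hg.2)).1

theorem n_fix (e : F.ρ β = β) (v0 : v ≠ 0) (hv : S.x β v ∈ F.fix) : S.n β v ∈ F.fix := by
  rw [Fr.mem_fix, F.σ_n _ _ v0, e, h.hq, (h.x_fix e).1 hv]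

theorem neg_fix (e : F.ρ β = β) (v0 : v ≠ 0) (hv : S.x β v ∈ F.fix) : S.x (R.neg β) (-v⁻¹) ∈ F.fix := by
  have := n_fix h e v0 hv
  rwa [PreSt.n, mul_mem_cancel_right hv, mul_mem_cancel_left hv] at this

theorem n_Rf (e : F.ρ β = β) (v0 : v ≠ 0) (hv : S.x β v ∈ F.fix) : S.n β v ∈ Rf F β :=
  mul_mem (mul_mem (Subgroup.mem_sup_left (mem_Xf h hv)) (Subgroup.mem_sup_right (mem_Xf h (neg_fix h e v0 hv))))
    (Subgroup.mem_sup_left (mem_Xf h hv))

omit h in
theorem nsub {i j : κ} (n : i ≠ j) : ¬ R.IsSum (R.neg (R.simple i)) (R.simple j) := fun ⟨k, e⟩ => by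
  rw [cf_neg, cf_simple, cf_simple] at e
  rcases R.sign k with s | s
  · have := s i; simp [e, n] at this
  · have := s j; simp [e, n.symm] at this

theorem w3' {i j : κ} {J : Set κ} (e : R.A i j = -2) (s : Sx F q J Y (R.simple i)) (l : Rf F (R.simple j) ≤ Y) :
    Rf F (R.simple i) ≤ Y := by
  rw [← pair_simple_simple] at e
  have ij : i ≠ j := by rintro rfl; simp at e
  have n : R.simple j ≠ R.neg (R.simple i) := fun c => (R.pos_neg_iff _).1 (c ▸ R.pos_simple j) (R.pos_simple i)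
  have r : ∀ r, F.ρ r = r := fun r => by rw [rho1 h e n]; rfl
  obtain ⟨-, -, -, v, v0, hv, nY, t, lY⟩ := s
  obtain ⟨ε, η, ε0, η1, c⟩ := b2 h e n
  obtain ⟨u, u0, hu⟩ := ex_fix h (r (R.simple j))
  have nf := n_fix h (r _) v0 hv
  have m : Xf F (R.refl (R.simple j) (R.simple i)) ≤ Y := Xf_le h (r _) (mul_ne_zero (mul_ne_zero ε0 v0) u0) fun a ha => by
    have x1 : S.x (R.simple j) (a * u) ∈ Y ⊓ F.fix :=
      ⟨l (Subgroup.mem_sup_left (mem_Xf h (fix_mul h (r _) hu ha))), fix_mul h (r _) hu ha⟩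
    have x2 : S.x (R.refl (R.simple i) (R.simple j)) (η * v ^ 2 * (a * u)) ∈ Y ⊓ F.fix := by
      have := mul_mem (mul_mem (⟨nY, nf⟩ : _ ∈ Y ⊓ F.fix) x1) (inv_mem ⟨nY, nf⟩)
      rw [S.nconj _ _ _ v0, mul_inv_cancel_right, e] at this
      rcases mul_self_eq_mul_self_iff.1 (η1.trans (eta_sq C K (R.simple i) (R.simple j)).symm) with k | k
      · simpa [k, zpow_ofNat] using this
      · simpa [k, zpow_ofNat] using inv_mem this
    have x3 : (S.x (R.simple i) v)⁻¹ * S.x (R.simple j) (a * u) * S.x (R.simple i) v ∈ Y ⊓ F.fix := by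
      refine ⟨?_, cfix' hv x1.2⟩
      have := mul_mem (mul_mem (inv_mem lY) x1.1) lY
      rwa [mul_inv_rev, mul_assoc, mul_assoc, ← mul_assoc (S.x (R.simple j) _), ← (S.commute_of_not
        (by rw [R.neg_neg]; exact R.simple_inj.ne ij.symm) (nsub ij) _ _).eq, mul_assoc, inv_mul_cancel_left, ← mul_assoc] at this
    rw [mul_assoc, c, ← mul_assoc, ← mul_assoc, inv_mul_cancel_left, mul_mem_cancel_right x2, mul_mem_cancel_left x1] at x3
    convert x3 using 2; ring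
  have x := Xf_of (n_mem_NW _ u0) (n_fix h (r _) u0 hu) (l (n_Rf h (r _) u0 hu)) m
  exact sup_le x (Xf_of (n_mem_NW _ v0) nf nY (by rwa [refl_neg_self]))

theorem dbl {n : G} (e : R.pair b a = -2) (ne : a ≠ R.neg b) (l : Xf F b ≤ Y) (hn : (n, R.refl b) ∈ S.NW) (nY : n ∈ Y ⊓ F.fix)
    (k : ∀ t, S.x a t ∈ F.fix → (S.x a t)⁻¹ * n * S.x a t * n⁻¹ ∈ Y) : Xf F a ≤ Y := by
  have r : ∀ r, F.ρ r = r := fun r => by rw [rho1 h e ne]; rfl
  obtain ⟨ε, η, ε0, η1, c⟩ := b2 h e ne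
  obtain ⟨u, u0, hu⟩ := ex_fix h (r b)
  obtain ⟨v, v0, hv⟩ := ex_fix h (r a)
  have p1 : R.pair (R.refl b a) b = 1 := by rw [← pair_refl_refl R b, refl_refl, refl_self, pair_neg_right, pm1 h e ne]; rfl
  have p2 : R.pair (R.refl b a) (R.refl a b) = 1 := by
    rw [← pq_cf, cf_refl R a b, pq_sub, pq_smul, pq_cf, pq_cf, p1, pm1 h e ne, ← pq_cf, ← refl_refl R b a, cf_refl R b (R.refl b a),
      refl_refl, pq_sub, pq_smul, pq_cf, pq_cf, pair_self, p1, pair_refl_right, e]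
    rfl
  have two : (2 : K) ≠ 0 := fun z => h.neg_ne (by linear_combination -z)
  refine Xf_of hn nY.2 nY.1 (Xf_le h (r _) (v := 2 * η * u ^ 2 * v)
    (by simp [two, u0, v0, left_ne_zero_of_mul_eq_one η1]) fun s hs => ?_)
  have hv' := inv_mem (fix_mul h (r a) hv hs)
  rw [x_inv] at hv'
  obtain ⟨z, f⟩ := NW.conj_x hn a (-(s * v))
  have P : S.x a (s * v) * S.x (R.refl b a) z ∈ Y ⊓ F.fix := by
    rw [← f]
    exact ⟨by simpa [mul_assoc] using k _ hv', mul_mem (fix_mul h (r a) hv hs) (cfix nY.2 hv')⟩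
  have A : ∀ w, S.x b w ∈ F.fix → S.x (R.refl a b) (ε * w * (s * v)) * S.x (R.refl b a) (η * w ^ 2 * (s * v)) ∈ Y ⊓ F.fix :=
    fun w hw => by
    have x : S.x b w ∈ Y ⊓ F.fix := ⟨l (mem_Xf h hw), hw⟩
    have := mul_mem (inv_mem P) (mul_mem (inv_mem x) (mul_mem P x))
    have cz : ∀ y, Commute (S.x (R.refl b a) z) (S.x (R.refl b a) y) := fun y => by rw [Commute, SemiconjBy, ← S.x_add, add_comm, S.x_add]
    rwa [mul_assoc (S.x a _), (cm1 h p1 _ _).eq, ← mul_assoc (S.x a _), c, mul_inv_rev, mul_assoc (S.x b w * _),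
      ← ((cm1 h p2 _ _).mul_right (cz _)).eq, mul_assoc (S.x b w), inv_mul_cancel_left, mul_assoc, inv_mul_cancel_left,
      inv_mul_cancel_left] at this
  have := mul_mem (A u hu) (A (-u) (by simpa using inv_mem hu))
  rw [mul_assoc, ← mul_assoc (S.x (R.refl b a) _), (cm1 h p2 _ _).eq, mul_assoc (S.x _ _), ← mul_assoc, ← S.x_add, ← S.x_add] at this
  convert this using 1
  rw [show ε * u * (s * v) + ε * -u * (s * v) = 0 by ring, x_zero, one_mul]
  congr 1; ring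

omit h in
theorem nJ {i : κ} {J : Set κ} (n : i ∉ J) : ¬ R.InJ J (R.simple i) := fun c => by simpa [cf_simple] using c i n

theorem sum_lt {k : ℕ} (k0 : 0 < k) : ∑ l ∈ Finset.range k, q ^ l < q ^ k - 1 := by
  have := h.three_le
  have e := Nat.geomSum_eq (m := q) (by omega) k
  have : 3 ≤ q ^ k := this.trans (Nat.le_self_pow k0.ne' q)
  rw [e]; exact Nat.div_lt_self (by omega) (by omega)
end

theorem w3 : W3 := fun _ _ _ _ _ _ h _ _ _ _ e s l => w3' h e s l

theorem w2 (tv : TV) (rn : RN) : W2 := by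
  intro _ _ _ _ _ _ R C K G _ _ S F p q _ _ _ τ J Y c i hi j hj e
  have h := c.toHy
  obtain ⟨l, a1, a2⟩ := rn F p q τ J Y c j hj
  have ij : j ≠ i := fun e => hi (e ▸ hj)
  have e0 := R.A_nonpos ij
  have := h.two (R.simple j) (R.simple i)
  rw [← pair_simple_simple] at e e0
  by_cases e2 : R.pair (R.simple j) (R.simple i) = -2
  · have n : R.simple i ≠ R.neg (R.simple j) := fun c => (R.pos_neg_iff _).1 (c ▸ R.pos_simple i) (R.pos_simple j)
    obtain ⟨v, v0, hv, nA⟩ := a2 (by rw [rho1 h e2 n]; rfl)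
    have t := (tv F p q τ J Y c _ nA).1 4 (fun d => h.odd ((Nat.prime_dvd_prime_iff_eq Fact.out Nat.prime_two).1
      ((Fact.out : p.Prime).dvd_of_dvd_pow (n := 2) d))) (by
        have k := F.hmul.n_mul_n (R.simple j) (neg_ne_zero.2 v0) (neg_ne_zero.2 one_ne_zero)
        rw [neg_mul_neg, mul_one, _root_.neg_neg] at k
        rw [show 4 = 2 * 2 from rfl, pow_mul, sq, sq, k, F.hmul _ _ _ (by simp) (by simp)]; simp)
    exact sup_le (dbl h e2 n (le_sup_left.trans l) (n_mem_NW _ v0) (Ac_le nA) fun s hs =>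
        t _ hs (.inl (x_mem_U (by exact ⟨R.pos_simple i, nJ hi⟩) _)))
      (dbl h (b := R.neg (R.simple j)) (by simpa using e2) (mt R.neg_inj n) (le_sup_right.trans l)
        (by rw [refl_neg_left]; exact n_mem_NW _ v0) (Ac_le nA) fun s hs =>
        t _ hs (.inr (x_mem_U (by exact ⟨(R.pos_neg_iff _).not.2 (not_not.2 (R.pos_simple i)), fun c => by simpa [cf_neg, cf_simple] using c i hi⟩) _)))
  obtain ⟨k, -, t⟩ := h.ty (R.simple j)
  obtain ⟨s, hs⟩ := h.exists_prim t.1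
  have lt := sum_lt h t.1
  have s0 := hs.ne_zero (by omega)
  obtain ⟨m, f⟩ := h.Nm_h k (R.simple j) s0
  have b : ∀ l, ∃ n : ℕ, n ≤ 1 ∧ R.pair ((F.ρ ^ l) (R.simple j)) (R.simple i) = -n ∧ (l = 0 → n = 1) := fun l => by
    obtain ⟨m, hm, e1⟩ : ∃ m ∈ J, R.simple m = (F.ρ ^ l) (R.simple j) := by
      induction l with
      | zero => exact ⟨j, hj, rfl⟩
      | succ l ih =>
        obtain ⟨m, hm, e1⟩ := ih
        obtain ⟨n, e2⟩ := h.smp m
        exact ⟨n, (c.stab m n e2).1 hm, by rw [pow_succ', Equiv.Perm.mul_apply, ← e1, e2]⟩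
    have x1 := R.A_nonpos (show m ≠ i from fun e => hi (e ▸ hm))
    rw [← pair_simple_simple, e1] at x1
    have x2 : -1 ≤ R.pair ((F.ρ ^ l) (R.simple j)) (R.simple i) := h.lace.elim (fun r => by simp only [r, one_pow]; change _ ≤ R.pair (R.simple j) _; omega)
      fun r => r _ _ fun c => (R.pos_neg_iff _).1 (c ▸ R.pos_simple i) (e1 ▸ R.pos_simple m)
    refine ⟨(R.pair ((F.ρ ^ l) (R.simple j)) (R.simple i)).natAbs, by omega, by omega, ?_⟩
    rintro rfl
    change _ ≤ R.pair (R.simple j) _ at x2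
    change (R.pair (R.simple j) _).natAbs = 1
    omega
  choose n n1 n2 n3 using b
  refine (tv F p q τ J Y c _ (a1 k s t s0 (by
    rw [← Nat.sub_add_cancel (show 1 ≤ q ^ k by omega), pow_succ, hs.pow_eq_one, one_mul]) ((em (q ^ k = 3)).imp_left fun z => ?_))).2
      m _ _ (nJ hi) ?_ (f _)
  · exact (show IsPrimitiveRoot s 2 by simpa [z] using hs).eq_neg_one_of_two_right
  · simp only [n2, zpow_neg, zpow_natCast, ← pow_mul, Finset.prod_inv_distrib, Finset.prod_pow_eq_pow_sum, ne_eq, inv_eq_one]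
    refine hs.pow_ne_one_of_pos_of_lt (Finset.sum_pos' (fun _ _ => Nat.zero_le _) ⟨0, Finset.mem_range.2 t.1, by simp [n3]⟩).ne'
      ((Finset.sum_le_sum fun l _ => ?_).trans_lt lt)
    simpa using Nat.mul_le_mul_left (q ^ l) (n1 l)

end H14.EF
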