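/-
S2935, chunks `CM` and `RS`.
-/
import Cfsg.Agent.H14.EF2

set_option autoImplicit false
set_option linter.unusedSectionVars false

namespace H14.EF
open Cfsg H14 H14.RootSys H14.St H14.PreSt H11 H27.ID Function H20.EF MatrixGroups
open H13.SL2 (x y w)

section
variable {G : Type} [Group G] {σ : G →* G} {a b c : G} {k : ℕ}

theorem comm_nm (h : ∀ i < k, Commute c (σ^[i] a)) : Commute c (Nm σ k a) := by
  induction k with
  | zero => exact Commute.one_right c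
  | succ k ih => rw [Nm_succ]; exact (ih fun i hi => h i (by omega)).mul_right (h k (by omega))

theorem nm_comm (e : b * a = a * b * c) (h1 : ∀ i < k, ∀ j < k, i ≠ j → Commute (σ^[i] a) (σ^[j] b))
    (h2 : ∀ i j, Commute (σ^[i] a) (σ^[j] c)) (h3 : ∀ i j, Commute (σ^[i] b) (σ^[j] c)) :
    Nm σ k b * Nm σ k a = Nm σ k a * Nm σ k b * Nm σ k c := by
  induction k with
  | zero => simp [Nm]
  | succ k ih =>
    have f := congrArg σ^[k] e
    simp only [iterate_map_mul] at f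
    have c1 : Commute (σ^[k] b) (Nm σ k a) := comm_nm fun i hi => (h1 i (by omega) k (by omega) hi.ne).symm
    have c2 : Commute (σ^[k] a) (Nm σ k b) := comm_nm fun i hi => h1 k (by omega) i (by omega) hi.ne'
    have c3 : Commute (σ^[k] a * σ^[k] b) (Nm σ k c) := (comm_nm fun i _ => h2 k i).mul_left (comm_nm fun i _ => h3 k i)
    rw [Nm_succ, Nm_succ, Nm_succ, mul_assoc, ← mul_assoc (σ^[k] b), c1.eq, mul_assoc, f, ← mul_assoc,
      ih fun i hi j hj => h1 i (by omega) j (by omega), mul_assoc, ← mul_assoc (Nm σ k c), ← c3.eq, mul_assoc (Nm σ k a),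
      mul_assoc (Nm σ k a), mul_assoc (Nm σ k a), ← mul_assoc (σ^[k] a), c2.eq]
    simp only [mul_assoc]

theorem conj_nm (h : σ c = c) (k : ℕ) : c * Nm σ k a * c⁻¹ = Nm σ k (c * a * c⁻¹) := by
  induction k with
  | zero => simp [Nm]
  | succ k ih => rw [Nm, Nm, ← ih, map_mul, map_mul, map_inv, h]; group
end

/-- conjugation by `diag(1, -1)` -/
def sg (E : Type) [Field E] : SL(2, E) →* SL(2, E) := MonoidHom.mk' (fun g => ⟨!![g.1 0 0, -g.1 0 1; -g.1 1 0, g.1 1 1], by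
    simpa [Matrix.det_fin_two] using H13.SL2.det' g⟩) fun g g' => Subtype.ext (by
  change !![(g.1 * g'.1) 0 0, -(g.1 * g'.1) 0 1; -(g.1 * g'.1) 1 0, (g.1 * g'.1) 1 1] =
    !![g.1 0 0, -g.1 0 1; -g.1 1 0, g.1 1 1] * !![g'.1 0 0, -g'.1 0 1; -g'.1 1 0, g'.1 1 1]
  ext i j; fin_cases i <;> fin_cases j <;> simp [Matrix.mul_apply, Fin.sum_univ_two, add_comm])
theorem sg_val {E : Type} [Field E] (g : SL(2, E)) : (sg E g).1 = !![g.1 0 0, -g.1 0 1; -g.1 1 0, g.1 1 1] := rfl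

theorem ex_tr {K : Type} [Field K] [IsAlgClosed K] {q k : ℕ} (h : 1 < q) (k0 : 0 < k) :
    ∃ a : K, ∑ i ∈ Finset.range k, a ^ q ^ i = 1 := by
  obtain ⟨a, e⟩ := IsAlgClosed.exists_root (∑ i ∈ Finset.range k, Polynomial.X ^ q ^ i - 1 : Polynomial K) fun d => by
    have := Polynomial.coeff_eq_zero_of_degree_lt (n := 1) (d.trans_lt (by decide))
    simp only [Polynomial.coeff_sub, Polynomial.finset_sum_coeff, Polynomial.coeff_X_pow, Polynomial.coeff_one] at this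
    rw [Finset.sum_eq_single 0 (fun i _ i0 => if_neg (Nat.one_lt_pow i0 h).ne) (by simp [k0])] at this
    simp at this
  exact ⟨a, by simpa [Polynomial.eval_finset_sum, sub_eq_zero] using e⟩

section
variable {ι κ : Type} [Fintype κ] [DecidableEq κ] [Fintype ι] [DecidableEq ι] {R : RootSys ι κ}
  {C : Chev R} {K G : Type} [Field K] [Group G] {S : St C K G} {F : S.Fr} {p q : ℕ} [hp : Fact p.Prime] [CharP K p] [IsAlgClosed K]
  {β : ι} {v : K} {Y : Subgroup G}

theorem nsub3 {a b c : κ} {r : ι} (e : R.cf r = R.cf (R.simple a) + R.cf (R.simple b)) (h1 : c ≠ a) (h2 : c ≠ b) (t u : K) :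
    Commute (S.x r t) (S.x (R.neg (R.simple c)) u) := by
  rw [cf_simple, cf_simple] at e
  have : 0 ≤ (Pi.single b 1 : κ → ℤ) a := by rw [Pi.single_apply]; split_ifs <;> simp
  refine S.commute_of_not (fun f => ?_) (fun ⟨k, f⟩ => ?_) t u
  · have := congrFun e c
    simp [← R.neg_inj f, cf_simple, h1, h2] at this
  · rw [cf_neg, cf_simple, e] at f
    rcases R.sign k with s | s
    · have := s c; simp [f, h1, h2] at this
    · have := s a; simp [f, h1.symm] at this; omega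

variable (h : Hy F p q)
include h

theorem it_x (e : F.ρ β = β) (hv : S.x β v ∈ F.fix) (a : K) (i : ℕ) : F.σ^[i] (S.x β (v * a)) = S.x β (v * a ^ q ^ i) := by
  induction i with
  | zero => simp
  | succ i ih => rw [iterate_succ_apply', ih, h.σ_x, e, mul_pow, ← mul_assoc, (h.x_fix e).1 hv, ← pow_mul, ← pow_succ]

theorem sim (i : κ) (n : ℕ) : ∃ j, R.simple j = (F.ρ ^ n) (R.simple i) := let ⟨j, _, e⟩ := h.sim_orb i n; ⟨j, e⟩

theorem cm' {i j : κ} (e : F.ρ (R.simple i) = R.simple i) (qp : q.Prime) (A : R.A i j = -1) (l : Rf F (R.simple j) ≤ Y)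
    (l' : Rf F (R.sr i (R.simple j)) ≤ Y) : Xf F (R.simple i) ≤ Y := by
  rw [← pair_simple_simple] at A
  have ij : i ≠ j := by rintro rfl; simp at A
  set γ := R.sr i (R.simple j) with hγ
  have c : R.cf γ = R.cf (R.simple i) + R.cf (R.simple j) := by rw [hγ, sr, cf_refl, A]; module
  have ep : ∀ n : ℕ, (F.ρ ^ n) (R.simple i) = R.simple i := Equiv.Perm.pow_apply_eq_self_of_apply_eq_self e
  have ρs : ∀ n : ℕ, (F.ρ ^ n) γ = R.refl (R.simple i) ((F.ρ ^ n) (R.simple j)) := fun n => by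
    rw [hγ, sr, Aut.refl_apply (pow_mem h.aut n), ep]
  have p1 : ∀ n : ℕ, R.pair (R.simple i) ((F.ρ ^ n) (R.simple j)) = -1 := fun n => by
    rw [← A, ← Aut.pair_eq (pow_mem h.aut n) (R.simple i) (R.simple j), ep]
  have p2 : ∀ n : ℕ, R.pair (R.simple i) ((F.ρ ^ n) γ) = 1 := fun n => by rw [ρs, pair_refl_right, p1]; rfl
  obtain ⟨k, -, t⟩ := h.ty (R.simple j)
  have t' : Ty F γ k := ⟨t.1, by rw [ρs, t.2.1], fun n a b => by rw [ρs, hγ, sr, pair_refl_refl, t.2.2 n a b]⟩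
  have s : R.cf (R.simple i) = R.cf γ + R.cf (R.neg (R.simple j)) := by rw [c, cf_neg]; module
  have N := h.N_ne ⟨_, s⟩ (by
    have := h.two (R.simple j) (R.simple i)
    rw [pair_neg_right, ← pair_refl_refl R (R.simple i), show R.refl (R.simple i) γ = _ from refl_refl .., ← sr, ← hγ, ← pq_cf, c,
      pq_add, pq_cf, pq_cf, pair_self]
    omega)
  have cc := fun a b => comm_one (S := S) ⟨_, s⟩ (by rw [plus_eq s]; exact fun z => ns h (p2 0) z.symm)
    (by rw [plus_eq s]; exact nsub ij.symm) a b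
  simp only [plus_eq s] at cc
  obtain ⟨v, v0, hv⟩ := ex_fix h e
  obtain ⟨a, ha⟩ := ex_tr (K := K) h.lt t.1
  obtain ⟨f, hf⟩ := h.pw
  have aq : a ^ q ^ k = a := by
    have := Finset.sum_range_succ' (fun i => a ^ q ^ i) k
    rw [Finset.sum_range_succ, ha] at this
    simp only [pow_succ, pow_mul] at this
    rw [hf, ← sum_pow_char_pow, ← hf, ha] at this
    simpa using this
  obtain ⟨d, d0, d1, -⟩ := h.iter k γ
  obtain ⟨d', -, d1', -⟩ := h.iter k (R.neg (R.simple j))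
  rw [t'.2.1] at d1
  rw [(ty_neg h.aut t).2.1] at d1'
  obtain ⟨u, u0, hu⟩ := exists_sol d0 (Nat.one_lt_pow t.1.ne' h.lt)
  obtain ⟨z, hz⟩ : ∃ z, -(C.N γ (R.neg (R.simple j)) * u * z) = v * a := ⟨-(v * a) / (C.N γ (R.neg (R.simple j)) * u), by field_simp⟩
  have r := cc u z
  rw [hz] at r
  have fz : F.σ^[k] (S.x (R.neg (R.simple j)) z) = S.x (R.neg (R.simple j)) z := by
    have := congrArg F.σ^[k] r
    simp only [iterate_map_mul] at this
    rw [d1, d1', hu, it_x h e hv, aq, cc, mul_right_inj, ← hz] at this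
    rw [d1', mul_left_cancel₀ (mul_ne_zero N u0) (neg_injective (F.sep.x_inj this))]
  have m := nm_comm (σ := F.σ) (k := k) r (fun a ha b hb ab => by
    obtain ⟨_, -, f, -⟩ := h.iter a γ
    obtain ⟨_, -, g, -⟩ := h.iter b (R.neg (R.simple j))
    obtain ⟨m, hm⟩ := sim h j a
    obtain ⟨n, hn⟩ := sim h j b
    rw [f, g, Aut.neg (pow_mem h.aut b), ← hn]
    refine nsub3 (a := i) (b := m) (by rw [ρs, cf_refl, p1, hm]; module) (fun z => ?_) (fun z => ?_) _ _
    · have := p1 b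
      rw [← hn, z, pair_self] at this; omega
    · have : ∀ a b, a < b → b < k → (F.ρ ^ a) (R.simple j) ≠ (F.ρ ^ b) (R.simple j) := fun a b l hb z => by
        obtain ⟨d, rfl⟩ := Nat.exists_eq_add_of_lt l
        have := t.2.2 (d + 1) d.succ_pos (by omega)
        rw [add_assoc, pow_add, Equiv.Perm.mul_apply, (F.ρ ^ a).injective.eq_iff] at z
        rw [← z, pair_self] at this; omega
      rcases lt_or_gt_of_ne ab with l | l
      exacts [this a b l hb (by rw [← hm, ← hn, z]), this b a l ha (by rw [← hm, ← hn, z])]) (fun a b => by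
    obtain ⟨_, -, f, -⟩ := h.iter a γ
    rw [f, it_x h e hv]; exact (cm1 h (p2 a) _ _).symm) fun a b => by
    obtain ⟨_, -, g, -⟩ := h.iter a (R.neg (R.simple j))
    obtain ⟨n, hn⟩ := sim h j a
    have : n ≠ i := fun z => by
      have := p1 a
      rw [← hn, z, pair_self] at this; omega
    rw [g, it_x h e hv, Aut.neg (pow_mem h.aut a), ← hn]
    exact S.commute_of_not (by rw [R.neg_neg]; exact R.simple_inj.ne this.symm) (nsub this) _ _
  have tr : ∀ n, Nm F.σ n (S.x (R.simple i) (v * a)) = S.x (R.simple i) (v * ∑ l ∈ Finset.range n, a ^ q ^ l) := fun n => by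
    induction n with
    | zero => simp [Nm]
    | succ n ih => rw [Nm_succ, ih, it_x h e hv, Finset.sum_range_succ, mul_add, S.x_add]
  have x1 : Nm F.σ k (S.x γ u) ∈ Y := l' (Subgroup.mem_sup_left ⟨U_mono (by rintro _ ⟨n, -, _, rfl, rfl⟩; exact ⟨n, rfl⟩)
    (Nm_mem (x_mem_U (Set.mem_singleton _) u) k), h.sub.Nm_fix h.toAmb trivial (R.pos_of_cf_pos (j := i) (by
      simp [c, cf_simple, ij])) t' (x_mem_U (by simp) _) (by rw [d1, hu])⟩)
  have x2 : Nm F.σ k (S.x (R.neg (R.simple j)) z) ∈ Y := l (Subgroup.mem_sup_right ⟨U_mono (by rintro _ ⟨n, -, _, rfl, rfl⟩; exact ⟨n, rfl⟩)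
    (Nm_mem (x_mem_U (Set.mem_singleton _) z) k), h.sub.Nm_fix h.toAmb trivial (R.pos_simple j) t (x_mem_U (by simp) _) fz⟩)
  have x3 := mul_mem x2 x1
  rw [m, mul_mem_cancel_left (mul_mem x1 x2), tr, ha, mul_one] at x3
  refine Xf_le h e v0 fun b hb => ⟨?_, fix_mul h e hv hb⟩
  obtain rfl : f = 1 := (hf ▸ qp).eq_one_of_pow
  obtain ⟨n, rfl⟩ := (mem_bot_iff_intCast p K).1 ((Subfield.mem_bot_iff_pow_eq_self K p).2 (by rwa [hf, pow_one] at hb))
  clear hb
  induction n using Int.induction_on with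
  | zero => simp
  | succ n ih => simpa [add_mul, S.x_add] using mul_mem ih x3
  | pred n ih => simpa [sub_eq_add_neg, add_mul, S.x_add] using Y.mul_mem ih (Y.inv_mem x3)

theorem rs' (rk : RK) (r1 : R1) {τ : G} {J : Set κ} (c : Cx F p q τ J Y) (b : R.pos β) (e : R.w0 J β = β) :
    Rf F β ≤ Y ∨ Sx F q J Y β := by
  obtain ⟨k, -, t⟩ := h.ty β
  obtain ⟨E, _, _, γ, v, φ, M⟩ := rk F p q h β k b t
  obtain ⟨d, d0, d1, d2⟩ := NW.act2 c.nw β
  rw [e] at d1 d2
  have τi : τ⁻¹ = τ := inv_eq_of_mul_eq_one_right c.sq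
  have c1 : ∀ u, τ * S.x β u * τ⁻¹ = S.x β (d * u) := fun u => by rw [d1, mul_inv_cancel_right]
  have dd : d * d = 1 := F.sep.x_inj (r := β) (by
    have := c1 (d * 1)
    rw [← c1, τi, ← mul_assoc, ← mul_assoc, c.sq, mul_assoc, mul_assoc, c.sq, one_mul, mul_one] at this
    simpa using this.symm)
  have c2 : ∀ u, τ * S.x (R.neg β) u * τ⁻¹ = S.x (R.neg β) (d * u) := fun u => by
    by_cases u0 : u = 0
    · simp [u0]
    have := d2 (-u⁻¹)
    rw [← mul_inv_eq_iff_eq_mul, PreSt.n, PreSt.n, ← MulAut.conj_apply, map_mul, map_mul, MulAut.conj_apply, MulAut.conj_apply, c1,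
      mul_left_inj, mul_right_inj] at this
    simpa [inv_eq_of_mul_eq_one_right dd, mul_comm] using this
  have f1 : ∀ a, τ * φ (x a) * τ⁻¹ = Nm F.σ k (S.x β (d * (v * γ a))) := fun a => by rw [M.hx, conj_nm c.fix, c1]
  have f2 : ∀ a, τ * φ (y a) * τ⁻¹ = Nm F.σ k (S.x (R.neg β) (d * (v⁻¹ * γ a))) := fun a => by rw [M.hy, conj_nm c.fix, c2]
  have R1 : ∀ a, φ (x a) ∈ Rf F β := fun a => Subgroup.mem_sup_left ((M.xp _).2 ⟨a, rfl⟩)
  have R2 : ∀ a, φ (y a) ∈ Rf F β := fun a => Subgroup.mem_sup_right ((M.xm _).2 ⟨a, rfl⟩)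
  have fin : (∀ a, φ (x a) ∈ Y) → (∀ a, φ (y a) ∈ Y) → Rf F β ≤ Y := fun a1 a2 =>
    sup_le (fun g hg => let ⟨a, e⟩ := (M.xp g).1 hg; e ▸ a1 a) fun g hg => let ⟨a, e⟩ := (M.xm g).1 hg; e ▸ a2 a
  rcases mul_self_eq_one_iff.1 dd with rfl | rfl
  · exact .inl (fin (fun a => c.uf.cent (h.Rf_le β (R1 a)) (mul_inv_eq_iff_eq_mul.1 (by rw [f1, M.hx, one_mul])).symm)
      fun a => c.uf.cent (h.Rf_le β (R2 a)) (mul_inv_eq_iff_eq_mul.1 (by rw [f2, M.hy, one_mul])).symm)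
  let s := sg E
  have ss : ∀ g, s (s g) = g := fun g => Subtype.ext (by
    rw [sg_val, sg_val]; ext i j; fin_cases i <;> fin_cases j <;> simp)
  have sx : ∀ a, s (x a) = x (-a) := fun a => Subtype.ext (by rw [sg_val]; simp)
  have sy : ∀ a, s (y a) = y (-a) := fun a => Subtype.ext (by rw [sg_val]; simp)
  have k1 : ∀ g, φ (s g) = τ * φ g * τ⁻¹ ∧ φ g ∈ Rf F β := by
    have a1 : ∀ a, φ (s (x a)) = τ * φ (x a) * τ⁻¹ := fun a => by rw [f1, sx, M.hx]; simp
    have a2 : ∀ a, φ (s (y a)) = τ * φ (y a) * τ⁻¹ := fun a => by rw [f2, sy, M.hy]; simp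
    refine H13.SL2.induction (fun a => ⟨a1 a, R1 a⟩) ⟨?_, ?_⟩ fun g g' i i' => ⟨?_, map_mul φ g g' ▸ mul_mem i.2 i'.2⟩
    · simp only [w, map_mul, a1, a2]; group
    · simpa only [w, map_mul] using mul_mem (mul_mem (R1 _) (R2 _)) (R1 _)
    · simp only [map_mul, i.1, i'.1]; group
  have o : Odd (Fintype.card E) := M.card ▸ h.odd_q.pow
  rcases r1 E (MonoidHom.toMulEquiv s s (MonoidHom.ext ss) (MonoidHom.ext ss)) (Y.comap φ) o sx sy (fun g => by
    change φ (g⁻¹ * s g) ∈ Y ↔ φ g ∈ Y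
    rw [map_mul, (k1 g).1, map_inv, ← mul_assoc, mul_mem_cancel_right (inv_mem c.uf.1), ← mul_assoc]
    exact c.uf.2 _ (h.Rf_le β (k1 g).2)) with z | z
  · exact .inl (fin (fun a => z.ge (Subgroup.mem_top _)) fun a => z.ge (Subgroup.mem_top _))
  rw [M.card] at z
  obtain rfl : k = 1 := by
    have := h.three_le
    have := t.1
    by_contra a
    have := Nat.pow_le_pow_right (n := q) (by omega) (show 2 ≤ k by omega)
    rcases z with z | z <;> nlinarith
  have r : F.ρ β = β := t.2.1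
  obtain ⟨u, u0, hu⟩ := ex_fix h r
  have nL := h.Rf_le β (n_Rf h r u0 hu)
  have nn := F.hmul.n_mul_n β (neg_ne_zero.2 u0) (neg_ne_zero.2 one_ne_zero)
  rw [neg_mul_neg, mul_one, _root_.neg_neg] at nn
  have hh : S.h β (-1) * S.h β (-1) = 1 := by rw [F.hmul _ _ _ (by simp) (by simp)]; simp
  have tn : τ * S.n β u * τ⁻¹ = (S.n β u)⁻¹ := by rw [d2, mul_inv_cancel_right]; simp
  have e1 : (S.n β u)⁻¹ * τ * S.n β u = τ * S.h β (-1) := by
    rw [← nn, ← mul_assoc, mul_left_inj, ← tn, inv_mul_cancel_right]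
  have hY : S.h β (-1) ∈ Y := c.uf.cent (nn ▸ mul_mem nL nL) (by
    refine (mul_inv_eq_iff_eq_mul.1 ?_ : τ * _ = _ * τ).symm
    rw [← MulAut.conj_apply, ← nn, map_mul, MulAut.conj_apply, tn, ← mul_inv_rev, nn, inv_eq_of_mul_eq_one_right hh])
  have tY := mul_mem c.uf.1 hY
  have nY := c.uf.mem nL (e1 ▸ tY)
  have two : (2 : K) ≠ 0 := fun z => h.neg_ne (by linear_combination -z)
  refine .inr ⟨r, by simpa using z, Subgroup.subset_closure ⟨τ, c.th, τ * S.h β (-1), ⟨?_, ?_, ?_, ?_⟩, ?_⟩, u, u0, hu, nY,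
    2⁻¹ * -u⁻¹, c.uf.mem (h.Rf_le β (mul_mem (Subgroup.mem_sup_right (mem_Xf h (fix_mul h (by rw [Aut.neg h.aut, r])
      (neg_fix h r u0 hu) ?_))) (Subgroup.mem_sup_left (mem_Xf h hu)))) ?_⟩
  · rw [← e1, mul_assoc, mul_assoc, mul_assoc _⁻¹ τ, mul_inv_cancel_left, ← mul_assoc τ, c.sq, one_mul, inv_mul_cancel]
  · simpa only [e1, inv_inv] using c.uf.conjM (inv_mem nL) (by rwa [inv_inv, e1])
  · exact e1 ▸ cfix' (n_fix h r u0 hu) c.fix
  · exact mul_mem c.th.2.2.2 (Subgroup.mem_sup_left (h_mem_H _ (by simp)))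
  · rw [← mul_assoc, c.sq, one_mul]
  · obtain ⟨f, rfl⟩ := h.pw
    rw [inv_pow, ← one_add_one_eq_two, add_pow_char_pow, one_pow]
  · convert mul_mem (inv_mem nY) c.uf.1 using 1
    rw [mul_assoc, ← mul_assoc τ, mul_inv_eq_iff_eq_mul.1 (c2 _), mul_assoc, d1, mul_inv_rev, n_inv, PreSt.n, x_inv, x_inv]
    simp only [← mul_assoc]
    rw [mul_assoc (S.x β _) (S.x _ _), ← S.x_add]
    congr 4 <;> field_simp <;> ring
end

theorem cm : CM := fun _ _ _ _ _ _ h _ _ _ e qp A l l' => cm' h e qp A l l'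

theorem rs (rk : RK) (r1 : R1) : RS := fun _ _ _ _ _ _ _ _ _ c _ b e => rs' c.toHy rk r1 c b e

end H14.EF
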