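/-
Standard subgroups `F₄(2)` centralized by four-groups, part 1: facts about `F₄(2)`.
-/
import Cfsg.Agent.H14.FS2

set_option autoImplicit false
set_option linter.unusedSectionVars false
set_option maxRecDepth 100000
set_option synthInstance.maxSize 100000

namespace H14.St
variable {ι κ : Type*} [Fintype κ] [DecidableEq κ] [Fintype ι] [DecidableEq ι] {R : RootSys ι κ} {C : Chev R} {K G : Type*} [Field K]
  [Group G] {S : St C K G}
open PreSt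
/-- overgroups of `B` are parabolic -/
theorem par {M : Subgroup G} (hB : S.B ≤ M) {g : G} (hg : g ∈ M) (hL : g ∈ S.U Set.univ) :
    g ∈ S.P {j | S.n (R.simple j) 1 ∈ M} := by
  have key : ∀ k n w, (n, w) ∈ S.NW → R.len w = k → n ∈ M → w ∈ R.WJ {j | S.n (R.simple j) 1 ∈ M} := fun k => by
    induction k with
    | zero => exact fun n w h e _ => R.eq_one_of_len_eq_zero (NW.mem_W h) e ▸ one_mem _
    | succ k ih =>
      intro n w h e m
      obtain ⟨i, hi⟩ : ∃ i, ¬ R.pos (w⁻¹ (R.simple i)) := by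
        by_contra! H
        rw [inv_eq_one.1 (R.eq_one_of_pos_simple (inv_mem (NW.mem_W h)) H)] at e
        simp at e
      have xp : ∀ r t, R.pos r → S.x r t ∈ M := fun r t hr => hB (U_le_B (x_mem_U hr t))
      obtain ⟨c, c0, ec⟩ := NW.act h (R.neg (w⁻¹ (R.simple i)))
      have hn : S.n (R.simple i) 1 ∈ M := by
        refine mul_mem (mul_mem (xp _ _ (R.pos_simple i)) ?_) (xp _ _ (R.pos_simple i))
        have := mul_mem (mul_mem m (xp _ (c⁻¹ * -1⁻¹) ((R.pos_neg_iff _).2 hi))) (inv_mem m)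
        rwa [ec, mul_inv_cancel_right, RootSys.Aut.neg (NW.mem_Aut h), Equiv.Perm.coe_inv, Equiv.apply_symm_apply, mul_inv_cancel_left₀ c0] at this
      have := ih _ _ (NW.mul (n_mem_NW (R.simple i) one_ne_zero) h) (by
        have := R.len_sr_mul_of_neg (NW.mem_Aut h) hi
        unfold RootSys.sr at this; omega) (mul_mem hn m)
      exact (Subgroup.mul_mem_cancel_left _ (R.sr_mem_WJ (J := {j | S.n (R.simple j) 1 ∈ M}) hn)).1 this
  obtain ⟨w, b, hb, n, hn, u, hu, rfl⟩ := exists_cell hL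
  exact mem_P_iff.2 ⟨w, key _ n w hn rfl ((Subgroup.mul_mem_cancel_left _ (hB hb)).1
    ((Subgroup.mul_mem_cancel_right _ (hB (U_le_B hu))).1 hg)), b, hb, n, hn, u, hu, rfl⟩
end H14.St

namespace H14.F4S
open Cfsg Subgroup H19 H14 H14.RootSys H14.PreSt H14.St Cfsg.Lie H20.EN

variable {G : Type*} [Group G] [Finite G] {S S' : St goodF4.C (ZMod 2) G} {r s : I} {A B : Set I}
  {g h k k' l l' u v w y δ : G} {a b : ZMod 2} {M : Subgroup G}

theorem z01 : ∀ a : ZMod 2, a = 0 ∨ a = 1 := by decide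
theorem x01 (h : S.x r 1 ∈ M) (a : ZMod 2) : S.x r a ∈ M := by
  obtain rfl | rfl := z01 a
  exacts [by simp, h]
theorem H1 : S.H = ⊥ := eq_bot_iff.2 (H_le.2 fun r t ht => by
  rw [(z01 t).resolve_left ht, PreSt.h, ← n_inv, mul_inv_cancel]; exact one_mem _)
theorem par2 (hU : S.U Ps ≤ M) (hg : g ∈ M) (hL : g ∈ S.U Set.univ) (h : ∀ r, (R.pos r ∨ R.InJ {j | S.n (R.simple j) 1 ∈ M} r) → r ∈ A) :
    g ∈ S.U A := by
  have := par (S := S) (sup_le hU (H1 (S := S) ▸ bot_le)) hg hL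
  rw [P_eq, H1, bot_sup_eq] at this
  exact U_mono h this
theorem mxA (hU : S.U Xa ≤ M) (n : ¬ S.U Set.univ ≤ M) (hg : g ∈ M) (hL : g ∈ S.U Set.univ) : g ∈ S.U Xa := by
  have l : S.U Ps ≤ M := (U_mono (by decide +kernel : ∀ r, _ → _)).trans hU
  have n3 : S.n (R.simple 3) 1 ∉ M := fun m => n (P_univ (S := S) ▸ P_le.2 ⟨sup_le l (H1 (S := S) ▸ bot_le), fun j _ => by
    by_cases e : j = 3
    · exact e ▸ m
    exact hU (n_mem_U (by revert j; decide +kernel) (by revert j; decide +kernel) 1)⟩)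
  exact par2 l hg hL fun r h => h.elim ((by decide +kernel : ∀ r, R.pos r → r ∈ Xa) r) fun h => (h 3 n3).ge
theorem mxC (hU : S.U Ps ≤ M) (n1 : S.n 33 1 ∉ M) (n2 : S.n 24 1 ∉ M) (hg : g ∈ M) (hL : g ∈ S.U Set.univ) : g ∈ S.U Cc :=
  par2 hU hg hL fun r h => h.elim ((by decide +kernel : ∀ r, R.pos r → r ∈ Cc) r) fun h =>
    ⟨(h 3 (by rwa [Set.mem_setOf, simple4.2.2.2])).ge, (h 0 (by rwa [Set.mem_setOf, simple4.1])).ge⟩

variable (S) in
/-- conjugacy in `L` -/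
def Cl (ρ y : G) : Prop := ∃ l ∈ S.U Set.univ, l * y * l⁻¹ = ρ
theorem Cl.rfl : Cl S y y := ⟨1, one_mem _, by simp⟩
theorem Cl.cj {ρ : G} (hl : l ∈ S.U Set.univ) (h : Cl S ρ (l * y * l⁻¹)) : Cl S ρ y :=
  let ⟨_, hm, e⟩ := h; ⟨_, mul_mem hm hl, (cjm _ _ _).trans e⟩
theorem Cl.ne {ρ ρ' : G} (n : ∀ l ∈ S.U Set.univ, l * ρ * l⁻¹ ≠ ρ') (h : Cl S ρ y) (h' : Cl S ρ' y) : False := by
  obtain ⟨l, hl, rfl⟩ := h
  obtain ⟨m, hm, e⟩ := h'
  exact n _ (mul_mem hm (inv_mem hl)) (by rw [← e]; group)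
theorem sp6 (hS : S.Sep) : (Cl S (S.x 47 1) y → ¬ Cl S (S.x 44 1) y ∧ ¬ Cl S (S.x 47 1 * S.x 44 1) y ∧ ¬ Cl S (S.x 39 1 * S.x 45 1) y) ∧
    (Cl S (S.x 44 1) y → ¬ Cl S (S.x 47 1 * S.x 44 1) y ∧ ¬ Cl S (S.x 39 1 * S.x 45 1) y) ∧
    (Cl S (S.x 47 1 * S.x 44 1) y → ¬ Cl S (S.x 39 1 * S.x 45 1) y) := by
  have := sp4 hS
  simp only [List.pairwise_cons, List.mem_cons, List.not_mem_nil, or_false, forall_eq_or_imp, forall_eq] at this
  exact ⟨fun h => ⟨h.ne this.1.1, h.ne this.1.2.1, h.ne this.1.2.2⟩, fun h => ⟨h.ne this.2.1.1, h.ne this.2.1.2⟩, fun h => h.ne this.2.2.1⟩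
theorem cl45 : Cl S (S.x 47 1) (S.x 45 1) := ⟨_, nL 26 1, by rw [nx4]; congr 1⟩
theorem cl39 : Cl S (S.x 44 1) (S.x 39 1) := ⟨_, nL 34 1, by rw [nx4]; congr 1⟩
theorem uq (hS : S.Sep) (hl : l ∈ S.U Set.univ) (hk : k ∈ C(S.U Set.univ)) (hl' : l' ∈ S.U Set.univ) (hk' : k' ∈ C(S.U Set.univ))
    (e : l * k = l' * k') : l = l' ∧ k = k' := by
  have := zl4 hS (mul_mem (inv_mem hl') hl) (by
    rw [show l'⁻¹ * l = k' * k⁻¹ by rw [inv_mul_eq_iff_eq_mul, ← mul_assoc, ← e, mul_inv_cancel_right]]; exact mul_mem hk' (inv_mem hk))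
  obtain rfl := inv_mul_eq_one.1 this
  exact ⟨rfl, mul_left_cancel e⟩
theorem cenL (hS : S.Sep) {T Res : Set I} (h : PL T Res ∅) (h4 : ∀ r : I, 44 ≤ r.1 → r ∈ A) (hT : T ⊆ A) (hy : y ∈ S.U Set.univ)
    (e : y ∈ C(S.U A)) : y ∈ S.U Res := by
  obtain ⟨k, hk, u, hu, -, rfl⟩ := cenP hS h h4 hT (le_normalizer hy) e
  rwa [zl4 hS ((Subgroup.mul_mem_cancel_right _ (UL hu)).1 hy) hk, one_mul]
/-- centres of centralizers of involutions -/
theorem zc (hS : S.Sep) (hδ : δ ∈ S.U Set.univ) (dd : δ * δ = 1) (d1 : δ ≠ 1) (hy : y ∈ S.U Set.univ)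
    (c : y ∈ C(S.U Set.univ ⊓ C[δ])) (y1 : y ≠ 1) (n : y ≠ δ) : (Cl S (S.x 47 1 * S.x 44 1) δ ∨ Cl S (S.x 39 1 * S.x 45 1) δ) ∧
      (Cl S (S.x 47 1) y ∧ Cl S (S.x 44 1) (y * δ) ∨ Cl S (S.x 44 1) y ∧ Cl S (S.x 47 1) (y * δ)) := by
  obtain ⟨l, hl, e⟩ := cls4 hS hδ dd d1
  have c' : l * y * l⁻¹ ∈ C(S.U Set.univ ⊓ C[l * δ * l⁻¹]) := by
    rw [← cj_cent1, ← cj_of_mem_norm (le_normalizer hl), ← cj_inf, ← cj_cent]; exact conj_mem_cj.2 c
  suffices (Cl S (S.x 47 1 * S.x 44 1) (l * δ * l⁻¹) ∨ Cl S (S.x 39 1 * S.x 45 1) (l * δ * l⁻¹)) ∧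
      (Cl S (S.x 47 1) (l * y * l⁻¹) ∧ Cl S (S.x 44 1) (l * y * l⁻¹ * (l * δ * l⁻¹)) ∨
        Cl S (S.x 44 1) (l * y * l⁻¹) ∧ Cl S (S.x 47 1) (l * y * l⁻¹ * (l * δ * l⁻¹))) by
    rw [conj_mul] at this
    exact ⟨this.1.imp (.cj hl) (.cj hl), this.2.imp (And.imp (.cj hl) (.cj hl)) (And.imp (.cj hl) (.cj hl))⟩
  have hy' := conj_mem_of_norm (le_normalizer hl) hy
  replace y1 : l * y * l⁻¹ ≠ 1 := mt conj_eq_one_iff.1 y1
  replace n : l * y * l⁻¹ ≠ l * δ * l⁻¹ := by simpa using n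
  generalize l * y * l⁻¹ = y at *
  generalize l * δ * l⁻¹ = δ at *
  have one : ∀ r, y ∈ S.U {r} → y = S.x r 1 := fun r h => by
    obtain ⟨a, rfl⟩ := mem_U_singleton.1 h
    rw [(z01 a).resolve_left fun e => y1 (by simp [e])]
  have two : ∀ r s, 0 ≤ pr r s → y ∈ S.U {r, s} → y ≠ S.x r 1 * S.x s 1 → y = S.x r 1 ∨ y = S.x s 1 := fun r s p h n => by
    obtain ⟨a, b, rfl⟩ := two4 p h
    obtain rfl | rfl := z01 a <;> obtain rfl | rfl := z01 b <;> simp at y1 n ⊢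
  have z : ∀ {A : Set I}, Ps ⊆ A → y ∈ C(S.U A) → y ∈ S.U {44, 47} := fun h c =>
    cenL (T := Ps) hS (by rw [Ps_eq]; decide +kernel) (fun r hr => h ((pos_iff r).2 (by omega))) h hy' c
  rcases e with rfl | rfl | rfl | rfl
  · rw [ca4 hS one_ne_zero] at c'
    exact (n (one 47 (U_mono (by decide +kernel : ∀ r, _ → _) (cutn (B := {40, 47}) hS 33 (by decide +kernel)
      (z (by decide +kernel : ∀ r, _ → _) c') c')))).elim
  · rw [cb4 hS one_ne_zero] at c'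
    exact (n (one 44 (U_mono (by decide +kernel : ∀ r, _ → _) (cutn (B := {44, 46}) hS 24 (by decide +kernel)
      (z (by decide +kernel : ∀ r, _ → _) c') c')))).elim
  · rw [cc4 hS one_ne_zero one_ne_zero] at c'
    refine ⟨.inl .rfl, (two 47 44 (by decide +kernel) (Set.pair_comm _ _ ▸ z (by decide +kernel : ∀ r, _ → _) c') n).imp ?_ ?_⟩ <;> rintro rfl
    exacts [⟨.rfl, by rw [← mul_assoc, x_mul_self, one_mul]; exact .rfl⟩,
      ⟨.rfl, by rw [cm (by decide +kernel), ← mul_assoc, x_mul_self, one_mul]; exact .rfl⟩]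
  rw [cd4 hS] at c'
  have := cutn (B := {39, 40, 45}) hS 33 (by decide +kernel) (U_mono (B := {39, 44, 45}) (by decide +kernel : ∀ r, _ → _)
    (cutn (B := {39, 44, 45, 46}) hS 24 (by decide +kernel) (cenL (T := Cd ∩ Ps) (Res := {39, 44, 45, 47}) hS (by rw [Ps_eq]; decide +kernel)
      (by decide +kernel) Set.inter_subset_left hy' c') c')) c'
  refine ⟨.inr .rfl, (two 39 45 (by decide +kernel) (U_mono (by decide +kernel : ∀ r, _ → _) this) n).symm.imp ?_ ?_⟩ <;> rintro rfl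
  exacts [⟨cl45, by rw [cm (by decide +kernel), ← mul_assoc, x_mul_self, one_mul]; exact cl39⟩,
    ⟨cl39, by rw [← mul_assoc, x_mul_self, one_mul]; exact cl45⟩]

theorem gf (hS : S.Sep) (hw : w ∈ N(S.U Set.univ)) (n : w ∉ S.U Set.univ ⊔ C(S.U Set.univ)) {b σ} (h : Ac S w b σ) : b = true := by
  cases b
  · exact (n (Ac.K ((Subsingleton.elim σ 1) ▸ h))).elim
  rfl
/-- outer automorphisms interchange long and short root elements -/
theorem swp (hS : S.Sep) (hw : w ∈ N(S.U Set.univ)) (n : w ∉ S.U Set.univ ⊔ C(S.U Set.univ)) (h : Cl S (S.x 47 1) y) :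
    Cl S (S.x 44 1) (w * y * w⁻¹) := by
  obtain ⟨b, σ, a⟩ := ac4 hS hw
  obtain rfl := gf hS hw n a
  obtain ⟨l, hl, δ, e, a⟩ := a
  obtain ⟨m, hm, e'⟩ := h
  have := a 47 1
  rw [map_one, one_pow, rb, cond_true, rhoV.2.1, ← e'] at this
  exact ⟨_, mul_mem (inv_mem hl) (conj_mem_of_norm hw hm), by rw [← this, e]; group⟩
theorem nrmU (hS : S.Sep) (h1 : S.U Ps ≤ M) (h2 : M ≤ S.U Set.univ) (hw : w ∈ N(M)) (ww : w * w = 1) :
    ∃ l ∈ M, l * w * l⁻¹ ∈ N(S.U Ps) := by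
  obtain ⟨P, hP, sP⟩ := (pg2 ww).exists_syl (le_sup_right (a := M))
  obtain ⟨l, hl, e⟩ := (hP.inf_normal ⟨le_sup_left, sup_le le_normalizer (zpowers_le.2 hw)⟩).sconj ((sylU hS).of_le h1 h2)
  exact ⟨l, hl, by
    rw [← e, ← cj_norm, conj_mem_cj]
    exact norms_inf (zpowers_le.2 (le_normalizer (sP (mem_zpowers _)))) (zpowers_le.2 hw) (mem_zpowers _)⟩
theorem ou (hS : S.Sep) (hw : w ∈ N(S.U Set.univ)) (n : w ∉ S.U Set.univ ⊔ C(S.U Set.univ)) (hU : w ∈ N(S.U Ps)) :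
    w * S.x 47 1 * w⁻¹ = S.x 44 1 ∧ ∃ v ∈ S.U {44, 47}, w * S.x 46 1 * w⁻¹ = v * S.x 40 1 := by
  obtain ⟨u, hu, δ, b, σ, χ, e, a, h⟩ := split4 hS hw hU
  obtain rfl := gf hS hw n a
  simp only [Subsingleton.elim (χ _) 1, Units.val_one, rb, cond_true, one_mul] at h
  exact ⟨by rw [e, cjm, h, map_one, one_pow, rhoV.2.1, z44 hu, mul_inv_cancel_right], _,
    In4.cm (B := {40}) (by decide +kernel) (by decide +kernel) (by decide +kernel) hu (xs 40 1), by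
      rw [e, cjm, h, map_one, one_pow, show ρ4 46 = 40 by decide +kernel, inv_mul_cancel_right]⟩

theorem x3 (r : I) : (S.x (R.neg r) 1 * S.x r 1) ^ 3 = 1 := by
  have := nx (S := S) r r 1
  rw [R.refl_self, PreSt.n, inv_one, CharTwo.neg_eq, mul_inv_eq_iff_eq_mul, mul_assoc, x_mul_self, mul_one] at this
  calc _ = S.x (R.neg r) 1 * (S.x r 1 * S.x (R.neg r) 1 * S.x r 1) * (S.x (R.neg r) 1 * S.x r 1) := by simp only [pow_succ, pow_zero, one_mul, mul_assoc]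
    _ = _ := by rw [← this, mul_assoc, ← mul_assoc (S.x (R.neg r) 1), x_mul_self, one_mul, x_mul_self]
/-- commutators of `2`-power order in the centralizer of an involution of the fourth class -/
theorem d3 (hg : g ∈ S.U Cd) (hh : h ∈ S.U Cd) (p : PiE {2} (g * h * g⁻¹ * h⁻¹)) : g * h * g⁻¹ * h⁻¹ ∈ S.U Od := by
  have nO : S.U Cd ≤ N(S.U Od) := fun _ hg => U_norm fun r hr a => In4.cj (by decide +kernel) hg (x_mem_U hr a)
  have xC : ∀ r ∈ ({14, 23, 24, 33} : Set I), S.x r 1 ∈ S.U Cd := fun r hr => x_mem_U (by revert r; decide +kernel) 1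
  set c := S.x 23 1 * S.x 24 1
  set d := S.x 14 1 * S.x 33 1
  have cm' : ∀ x ∈ S.U {23, 24}, ∀ y ∈ S.U {14, 33}, x * y = y * x := fun x hx y hy => cmm (by decide +kernel) hx hy
  have hc : c ∈ S.U {23, 24} := mul_mem (x_mem_U (by simp) _) (x_mem_U (by simp) _)
  have hd : d ∈ S.U {14, 33} := mul_mem (x_mem_U (by simp) _) (x_mem_U (by simp) _)
  have c3 : ∀ {c : G}, c ^ 3 = 1 → ∀ x ∈ zpowers c, x ^ 3 = 1 := fun e _ ⟨i, h⟩ => by
    rw [← h, ← zpow_natCast, ← zpow_mul, mul_comm, zpow_mul, zpow_natCast, e, one_zpow]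
  have lT : zpowers c ⊔ zpowers d ≤ N(S.U Od) := sup_le (zpowers_le.2 (nO (mul_mem (xC _ (by simp)) (xC _ (by simp)))))
    (zpowers_le.2 (nO (mul_mem (xC _ (by simp)) (xC _ (by simp)))))
  have iv : ∀ r, S.x r 1 ∈ N(zpowers (S.x (R.neg r) 1 * S.x r 1)) := fun r => mem_norm_of_cj_le (by
    rw [cj_zpowers, zpowers_le, xi, mul_assoc (S.x r 1), mul_assoc, x_mul_self, mul_one, ← inv_mem_iff, _root_.mul_inv_rev, xi, xi]
    exact mem_zpowers _)
  have nT : S.U {24, 33} ≤ N(S.U Od ⊔ (zpowers c ⊔ zpowers d)) := norms_sup ((U_mono (by decide +kernel : ∀ r, _ → _)).trans nO)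
    (norms_sup (U_le.2 (by
      rintro _ (rfl | rfl) <;> refine x01 ?_
      exacts [iv 24, cent1_le_norm_zpowers _ (mem_cent1.2 (cm' _ hc _ (x_mem_U (by simp) _)).symm)])) (U_le.2 (by
      rintro _ (rfl | rfl) <;> refine x01 ?_
      exacts [cent1_le_norm_zpowers _ (mem_cent1.2 (cm' _ (x_mem_U (by simp) _) _ hd)), iv 33])))
  have le : S.U Cd ≤ (S.U Od ⊔ (zpowers c ⊔ zpowers d)) ⊔ S.U {24, 33} := U_le.2 fun r hr => x01 (by
    obtain h | h | rfl | rfl : r ∈ Od ∨ r ∈ ({24, 33} : Set I) ∨ r = 23 ∨ r = 14 := by revert r; decide +kernel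
    exacts [mem_sup_left (mem_sup_left (x_mem_U h 1)), mem_sup_right (x_mem_U h 1),
      (Subgroup.mul_mem_cancel_right _ (mem_sup_right (x_mem_U (by simp) 1))).1 (mem_sup_left (mem_sup_right (mem_sup_left (mem_zpowers c)))),
      (Subgroup.mul_mem_cancel_right _ (mem_sup_right (x_mem_U (by simp) 1))).1 (mem_sup_left (mem_sup_right (mem_sup_right (mem_zpowers d))))])
  obtain ⟨t, ht, b, hb, rfl⟩ := (mem_sup_of_norm nT).1 (le hg)
  obtain ⟨t', ht', b', hb', rfl⟩ := (mem_sup_of_norm nT).1 (le hh)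
  have e : b * b' = b' * b := cmm (by decide +kernel) hb hb'
  have m := mul_mem (mul_mem (mul_mem ht (conj_mem_of_norm (nT hb) ht')) (conj_mem_of_norm (nT hb') (inv_mem ht))) (inv_mem ht')
  rw [show t * (b * t' * b⁻¹) * (b' * t⁻¹ * b'⁻¹) * t'⁻¹ = t * b * (t' * b') * (t * b)⁻¹ * (t' * b')⁻¹ by
    rw [show t * b * (t' * b') * (t * b)⁻¹ = t * b * t' * b⁻¹ * (b * b') * b⁻¹ * t⁻¹ by group, e]; group] at m
  generalize t * b * (t' * b') * (t * b)⁻¹ * (t' * b')⁻¹ = x at *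
  obtain ⟨o, ho, a, ha, rfl⟩ := (mem_sup_of_norm lT).1 m
  have a3 : a ^ 3 = 1 := by
    obtain ⟨x, hx, y, hy, rfl⟩ := (mem_sup_of_norm (zpowers_le.2 (cent_le_norm _ (le_cent1_iff.1 (zpowers_le.2 (mem_cent1.2 (cm' _ hc _ hd))))))).1 ha
    rw [Commute.mul_pow (cm' _ (zpowers_le.2 hc hx) _ (zpowers_le.2 hd hy)), c3 (x3 24) x hx, c3 (x3 33) y hy, one_mul]
  have := mul_mem (mul_mem ho (conj_mem_of_norm (lT ha) ho)) (conj_mem_of_norm (lT ha) (conj_mem_of_norm (lT ha) ho))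
  rw [show o * (a * o * a⁻¹) * (a * (a * o * a⁻¹) * a⁻¹) = (o * a) ^ 3 * (a ^ 3)⁻¹ by simp only [pow_succ]; group, a3, inv_one, mul_one] at this
  exact zpowers_le.2 this (mem_zpowers_pow_iff.2 ((PiN.of_coprime (show Nat.Coprime 3 2 by decide)).coprime' p))

end H14.F4S
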