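import Cfsg.Agent.H4.PG0

/-! S5855, chunk PG: `P3E`, `P3T`, `P3L`. -/

set_option autoImplicit false
set_option linter.unusedSectionVars false

open H4.PG
open scoped commutatorElement

namespace H14.PG

variable {F : Type*} [Field F] [Fintype F] {σ : F →+* F} {q : ℕ} {G : Type*} [Group G] [Finite G]
  {ρ : G →* Matrix (Fin 7) (Fin 7) F}

/-- quotients of constants -/
theorem cd (h : UT ρ) {b k : G} {x y x' y' : F} (a : Cn ρ b x y) (c : Cn ρ k x' y') : Cn ρ (b * k⁻¹) (x - x') (y - y') := by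
  refine ⟨⟨⟨?_⟩, ?_, ?_⟩, ?_, ?_, ?_, ?_, ?_, ?_, ?_⟩ <;>
  simp [h.d45, h.d34, h.d35, h.d12, h.d13, h.d14, h.d23, h.d24, h.d15, h.d25, a.h45, a.h34, a.h35, a.h12, a.h13, a.h14,
    a.h23, a.h24, a.h15, a.h25, c.h45, c.h34, c.h35, c.h12, c.h13, c.h14, c.h23, c.h24, c.h15, c.h25]

theorem ck {b : G} (a : Cn ρ b 0 0) : K1 ρ b := ⟨⟨a.1, a.h23, a.h24, a.h25⟩, a.h12, a.h13, a.h14, a.h15⟩

/-- two constants with the same value have the same first row -/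
theorem same (h : Md σ q ρ) {b k : G} {x y : F} (a : Cn ρ b x y) (c : Cn ρ k x y) :
    ρ b 0 1 = ρ k 0 1 ∧ ρ b 0 2 = ρ k 0 2 ∧ ρ b 0 3 = ρ k 0 3 ∧ ρ b 0 4 = ρ k 0 4 := by
  have t := h.k1 _ (ck (by simpa using cd h.toUT a c))
  have e1 := h.d01 b k
  have e2 := h.d02 b k
  have e3 := h.d03 b k
  have e4 := h.d04 b k
  rw [t.h01] at e1 e2 e3 e4
  rw [t.h02] at e2 e3 e4
  rw [t.h03] at e3 e4
  rw [t.h04] at e4
  exact ⟨by linear_combination -e1, by linear_combination -e2, by linear_combination -e3, by linear_combination -e4⟩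

/-- constants are central modulo `K₁` -/
theorem ck1 (h : UT ρ) (z : ∀ g, ρ g 1 2 = 0) {b : G} {x y : F} (a : Cn ρ b x y) (g : G) : K1 ρ ⁅b, g⁆ := by
  have e24 : ρ ⁅b, g⁆ 2 4 = 0 := by simp [h.c24, a.h23, a.h34]
  have e13 : ρ ⁅b, g⁆ 1 3 = 0 := by simp [h.c13, z]
  have e14 : ρ ⁅b, g⁆ 1 4 = 0 := by rw [h.c14, e13]; simp [z, a.h13, a.h34]
  exact ⟨⟨h.n3 a.1 g, h.c23 b g, e24, by rw [h.c25, e24]; simp [a.h23, a.h24, a.h35, a.h45]⟩, z _, e13, e14,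
    by rw [h.c15, e13, e14]; simp [z, a.h13, a.h14, a.h35, a.h45]⟩

theorem c05' (h : Md σ q ρ) {s g : G} (a : K3 ρ s) (c : K1 ρ ⁅s, g⁆) : ρ ⁅s, g⁆ 0 5 = ρ s 0 1 * ρ g 1 5 + ρ s 0 2 * ρ g 2 5 +
    ρ s 0 3 * ρ g 3 5 + ρ s 0 4 * ρ g 4 5 - (ρ g 0 1 * ρ s 1 5 + ρ g 0 2 * ρ s 2 5) := by
  have t := h.k1 _ c
  rw [h.c05, t.h02, t.h03, t.h04, a.h35, a.h45]; ring

/-- the basic reality condition -/
theorem star (h : Md σ q ρ) (p : PC ρ q) {b : G} {x y : F} (a : Cn ρ b x y) (g : G) :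
    σ (ρ b 0 1 * ρ g 1 5 + ρ b 0 2 * ρ g 2 5 + ρ b 0 3 * ρ g 3 5 + ρ b 0 4 * ρ g 4 5 - (ρ g 0 1 * x + ρ g 0 2 * y)) =
      ρ b 0 1 * ρ g 1 5 + ρ b 0 2 * ρ g 2 5 + ρ b 0 3 * ρ g 3 5 + ρ b 0 4 * ρ g 4 5 - (ρ g 0 1 * x + ρ g 0 2 * y) := by
  have c := ck1 h.toUT p.z12 a g
  have := h.ra p.t1 c
  rwa [c05' h a.1 c, a.h15, a.h25] at this

theorem nk' (h : Md σ q ρ) (p : PC ρ q) : nz ρ 3 4 ∧ ((nz ρ 0 1 ∧ nz ρ 1 3) ∨ (nz ρ 0 2 ∧ nz ρ 2 3)) := by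
  have z : ¬nz ρ 1 2 := fun ⟨g, e⟩ => e (p.z12 g)
  rcases h.nk with k | k | k | k | k
  exacts [(z k.2.1).elim, (z k.1).elim, (z k.2.1).elim, ⟨k.2.2, .inl ⟨k.1, k.2.1⟩⟩, ⟨k.2.2, .inr ⟨k.1, k.2.1⟩⟩]

theorem n02 (p : PC ρ q) : nz ρ 0 2 := by
  by_contra n
  simp only [nz, not_exists, not_not] at n
  exact one_ne_zero (p.fx 0 1 0 0 fun g => by simp [n g, p.z12 g]).2.1

theorem p3e (h : Md σ q ρ) : P3E σ q ρ := fun p b y a => by
  obtain ⟨ε, hε⟩ := p.pv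
  have k : ∀ (v : F) (x1 x2 x3 x4 : F → F), (∀ c, ρ b 0 1 * x1 c + ρ b 0 2 * x2 c + ρ b 0 3 * x3 c + ρ b 0 4 * x4 c = c * v) →
      v = 0 := fun v x1 x2 x3 x4 e => h.pr p.pp (ε := ε * y) fun c => by
    obtain ⟨g, -, e1, e2, e3, e4⟩ := h.tr 0 (x1 c) (x2 c) (x3 c) (x4 c)
    obtain ⟨n, hn⟩ := hε g
    have := star h p a g
    rw [e1, e2, e3, e4, e, hn, mul_zero, zero_add, mul_assoc] at this
    exact ⟨n, this⟩
  have e1 := k (ρ b 0 1) id 0 0 0 fun c => by simp [mul_comm]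
  have e2 := k (ρ b 0 2) 0 id 0 0 fun c => by simp [mul_comm]
  have e3 := k (ρ b 0 3) 0 0 id 0 fun c => by simp [mul_comm]
  have e4 := k (ρ b 0 4) 0 0 0 id fun c => by simp [mul_comm]
  refine ⟨⟨e1, e2, e3, e4, a.h12, a.h13, a.h14, a.h23, a.h24, a.h34⟩, fun g => ?_⟩
  have := star h p a g
  rw [e1, e2, e3, e4] at this
  simpa [mul_comm] using this

theorem p3t (h : Md σ q ρ) : P3T σ q ρ := fun p eb t a => by
  have tt := h.k1 t a
  have t56 : ρ t 5 6 = 0 := by simp [h.u1, a.h45]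
  have k : ∀ g, K0 ρ ⁅t, g⁆ := fun g => by
    have c := h.n1 a g
    have s := h.k1 _ c
    exact ⟨c, s.h01, s.h02, s.h03, s.h04, by
      rw [c05' h a.1.1 c]; simp [tt.h01, tt.h02, tt.h03, tt.h04, a.h15, a.h25]⟩
  have z := fun g => h.c5 p.fx eb _ (k g)
  obtain ⟨⟨g, hg⟩, n⟩ := nk' h p
  have t46 : ρ t 4 6 = 0 := by
    have := h.c36 t g
    rw [(z g).2.2.2.1, (k g).h35, t56, a.h34, a.h35] at this
    exact (mul_eq_zero.1 (by linear_combination this)).resolve_left hg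
  have t36 : ρ t 3 6 = 0 := by
    rcases n with ⟨-, g, hg⟩ | ⟨-, g, hg⟩
    · have := h.c16 t g
      rw [(z g).2.1, (k g).h13, (k g).h14, (k g).h15, t56, t46, a.h12, a.h13, a.h14, a.h15, p.z12] at this
      exact (mul_eq_zero.1 (by linear_combination this)).resolve_left hg
    · have := h.c26 t g
      rw [(z g).2.2.1, (k g).h24, (k g).h25, t56, t46, a.h23, a.h24, a.h25] at this
      exact (mul_eq_zero.1 (by linear_combination this)).resolve_left hg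
  refine ⟨t46, t36, fun g => ?_⟩
  have := h.c06 t g
  rw [(z g).1, (k g).h02, (k g).h03, (k g).h04, (k g).h05, t56, t46, t36, tt.h01, tt.h02, tt.h03, tt.h04, h.u1 g] at this
  linear_combination this

theorem p3l (h : Md σ q ρ) : P3L σ q ρ := fun p x y x0 hb => by
  have b1 : ∀ l b, Cn ρ b (l * x) (l * y) → ρ b 0 2 = 0 → ρ b 0 1 = 0 := fun l b a e => by
    obtain ⟨k, c, e'⟩ := hb l
    have s := same h a c
    rw [← s.1, ← s.2.1, e] at e'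
    simpa [x0] using e'
  let H : Subgroup G := .ofDiv {b | ∃ l, Cn ρ b (l * x) (l * y)} ⟨_, 0, (hb 0).choose_spec.1⟩ fun b ⟨l, a⟩ k ⟨m, c⟩ =>
    ⟨l - m, by simpa only [sub_mul] using cd h.toUT a c⟩
  obtain ⟨⟨s, l1, a1⟩, ⟨r, l2, a2⟩, l, s2, r2, s0, e, hl⟩ := h.toFD.ip (G := H) p.pp (fun b => ρ b 1 5) (fun b => ρ b 0 2)
    (fun ⟨b, _, a⟩ ⟨k, _, c⟩ => by simpa [a.h15, c.h15] using (cd h.toUT a c).h15)
    (fun b k => by simp [h.d02, p.z12])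
    (fun c => by
      obtain ⟨b, a, -⟩ := hb (c / x)
      exact ⟨⟨b, _, a⟩, by simp [a.h15, x0]⟩)
    (p.pv.imp fun _ e b => e b)
  simp only [a1.h15, a2.h15] at s2 r2 s0 e
  have l0 : l1 ≠ 0 := left_ne_zero_of_mul s0
  obtain rfl : l2 = l * l1 := mul_right_cancel₀ x0 (by linear_combination e)
  have b2 : ∀ l b, Cn ρ b (l * x) (l * y) → ρ b 0 2 = 0 := fun m b a => h.re0 fun c => by
    obtain ⟨g, -, e1, e2, e3, e4⟩ := h.tr 0 0 c 0 0
    have k1 := star h p a1 g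
    have k2 := star h p a2 g
    have k3 := star h p a g
    rw [e1, e2, e3, e4] at k1 k2 k3
    rw [s2] at k1
    rw [r2] at k2
    have η : ρ g 0 1 * x + ρ g 0 2 * y = 0 := by
      simp only [map_sub, map_add, map_mul, map_zero] at k1 k2
      refine by_contra fun n => mul_ne_zero (sub_ne_zero.2 hl) (mul_ne_zero l0 n) ?_
      linear_combination σ l * k1 - k2
    rw [show ρ g 0 1 * (m * x) + ρ g 0 2 * (m * y) = 0 by linear_combination m * η] at k3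
    simpa [mul_comm] using k3
  have b3 : ∀ l b, Cn ρ b (l * x) (l * y) → ρ b 0 3 = 0 := fun m b a => by
    obtain ⟨⟨g, hg⟩, -⟩ := nk' h p
    have t := h.k1 _ (ck1 h.toUT p.z12 a g)
    have := h.c04 b g
    rw [t.h04, t.h02, t.h03, b2 m b a, b1 m b a (b2 m b a), a.h14, a.h24, a.h34] at this
    exact (mul_eq_zero.1 (by linear_combination -this)).resolve_right hg
  have k : ∀ l b, Cn ρ b (l * x) (l * y) → ∀ g, σ (ρ b 0 4) * σ (ρ g 4 5) - σ l * σ (x * ρ g 0 1 + y * ρ g 0 2) =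
      ρ b 0 4 * ρ g 4 5 - l * (x * ρ g 0 1 + y * ρ g 0 2) := fun m b a g => by
    have := star h p a g
    rw [b3 m b a, b2 m b a, b1 m b a (b2 m b a)] at this
    simp only [map_sub, map_add, map_mul, map_zero] at this ⊢
    linear_combination this
  obtain ⟨u, au, -⟩ := hb 1
  obtain ⟨w, aw, -⟩ := hb l
  have d0 : l - σ l ≠ 0 := sub_ne_zero.2 (Ne.symm hl)
  have eη : ∀ g, x * ρ g 0 1 + y * ρ g 0 2 = (ρ w 0 4 - σ l * ρ u 0 4) / (l - σ l) * ρ g 4 5 +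
      -(σ (ρ w 0 4) - σ l * σ (ρ u 0 4)) / (l - σ l) * σ (ρ g 4 5) := fun g => by
    have k1 := k 1 u au g
    rw [map_one] at k1
    field_simp
    linear_combination k l w aw g - σ l * k1
  generalize (ρ w 0 4 - σ l * ρ u 0 4) / (l - σ l) = κ at eη
  generalize -(σ (ρ w 0 4) - σ l * σ (ρ u 0 4)) / (l - σ l) = τ at eη
  refine ⟨κ, τ, by_contra fun n => ?_, eη, fun m b a => ⟨b1 m b a (b2 m b a), b2 m b a, b3 m b a, ?_, a.h12, a.h13, a.h14,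
    a.h23, a.h24, a.h34⟩⟩
  · push Not at n
    exact x0 (p.fx x y 0 0 fun g => by
      have := eη g
      simp only [n.1, n.2, zero_mul, add_zero] at this
      simp [p.z12 g, mul_comm, this]).1
  · refine sub_eq_zero.1 (h.re0 fun c => ?_)
    obtain ⟨g, -, -, -, -, e⟩ := h.tr 0 0 0 0 c
    have := k m b a g
    rw [eη, e] at this
    simp only [map_sub, map_add, map_mul, h.ss] at this ⊢
    linear_combination this

end H14.PG
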