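import Cfsg.Agent.H14.PG1

/-! S5855, chunk PG: `P3N`, `P3C`. -/

set_option autoImplicit false
set_option linter.unusedSectionVars false

open H4.PG
open scoped commutatorElement

namespace H14.PG

variable {F : Type*} [Field F] [Fintype F] {σ : F →+* F} {q : ℕ} {G : Type*} [Group G] [Finite G]
  {ρ : G →* Matrix (Fin 7) (Fin 7) F}

/-- the identity and `σ` are independent -/
theorem two (h : FD σ q) {A B : F} (k : ∀ c, A * c = B * σ c) : A = 0 ∧ B = 0 := by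
  obtain ⟨l, hl⟩ := h.ex
  have k1 := k 1
  rw [map_one] at k1
  have b : B = 0 := (mul_eq_zero.1 (by linear_combination l * k1 - k l : B * (σ l - l) = 0)).resolve_right (sub_ne_zero.2 hl)
  exact ⟨by linear_combination k1 + b, b⟩

/-- no line of constants along `e₃` -/
theorem y0 (h : Md σ q ρ) (p : PC ρ q) {y : F} (k : ∀ l, ∃ b, Cn ρ b 0 (l * y)) : y = 0 := by
  obtain ⟨g, hg⟩ := n02 p
  refine (mul_eq_zero.1 (h.re0 fun l => ?_)).resolve_right hg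
  obtain ⟨b, a⟩ := k l
  simpa only [mul_assoc] using (p3e h p b _ a).2 g

/-- two values of `α` on the kernel of the entry `02` -/
theorem ipk (h : Md σ q ρ) (p : PC ρ q) :
    ∃ g k l, ρ g 0 2 = 0 ∧ ρ k 0 2 = 0 ∧ ρ g 4 5 ≠ 0 ∧ ρ k 4 5 = l * ρ g 4 5 ∧ σ l ≠ l :=
  h.toFD.ip p.pp (fun b => ρ b 4 5) (fun b => ρ b 0 2) h.d45 (fun b k => by simp [h.d02, p.z12])
    (fun c => by obtain ⟨g, -, -, -, -, e⟩ := h.tr 0 0 0 0 c; exact ⟨g, e⟩) p.pv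

theorem p3n0 (h : Md σ q ρ) (p : PC ρ q) {s : G} (a : K3 ρ s) (s13 : ρ s 1 3 = 0) (s23 : ρ s 2 3 = 0) :
    ρ s 1 4 = 0 ∧ ρ s 2 4 = 0 := by
  have cn : ∀ g, Cn ρ ⁅s, g⁆ (ρ g 4 5 * ρ s 1 4) (ρ g 4 5 * ρ s 2 4) := fun g => by
    have e13 : ρ ⁅s, g⁆ 1 3 = 0 := by simp [h.c13, p.z12]
    have e14 : ρ ⁅s, g⁆ 1 4 = 0 := by rw [h.c14, e13]; simp [p.z12, s13, a.h34]
    have e24 : ρ ⁅s, g⁆ 2 4 = 0 := by simp [h.c24, s23, a.h34]
    exact ⟨h.n3 a g, p.z12 _, e13, e14, h.c23 s g, e24, by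
      rw [h.c15, e13, e14]; simp [p.z12, s13, a.h35, a.h45, mul_comm], by
      rw [h.c25, e24]; simp [s23, a.h35, a.h45, mul_comm]⟩
  have ex : ∀ l, ∃ b, Cn ρ b (l * ρ s 1 4) (l * ρ s 2 4) := fun l => by
    obtain ⟨g, -, -, -, -, e⟩ := h.tr 0 0 0 0 l
    exact ⟨_, e ▸ cn g⟩
  suffices x0 : ρ s 1 4 = 0 from ⟨x0, y0 h p fun l => by simpa [x0] using ex l⟩
  by_contra x0
  obtain ⟨κ, τ, n, η, eb⟩ := p3l h p _ _ x0 fun l => (ex l).imp fun b c => ⟨c, by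
    have t := h.k1 _ (ck1 h.toUT p.z12 c s)
    have := h.c04 b s
    rw [t.h04, t.h02, t.h03, a.h34, c.h14, c.h24, c.h34] at this
    linear_combination -this⟩
  generalize hx : ρ s 1 4 = x at *
  generalize hy : ρ s 2 4 = y at *
  obtain ⟨ε, hε⟩ := p.pv
  have k : ∀ (v : F) (x1 x2 x3 : F → F), (∀ c, ρ s 0 1 * x1 c + ρ s 0 2 * x2 c + ρ s 0 3 * x3 c = c * v) → v = 0 :=
    fun v x1 x2 x3 e => h.pr p.pp (ε := ε * (ρ s 2 5 - y * ρ s 1 5 / x)) fun c => by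
      obtain ⟨g, -, e1, e2, e3, e4⟩ := h.tr 0 (x1 c) (x2 c) (x3 c) 0
      obtain ⟨m, hm⟩ := hε g
      have c1 : K1 ρ ⁅s, g⁆ := ck (by simpa [e4] using cn g)
      have := h.ra p.t1 c1
      have e5 := η g
      rw [e4, map_zero] at e5
      rw [c05' h a c1, e1, e2, e3, e4, e, mul_zero, add_zero, show ρ g 0 1 * ρ s 1 5 + ρ g 0 2 * ρ s 2 5 =
        m * (ε * (ρ s 2 5 - y * ρ s 1 5 / x)) by rw [← mul_assoc, ← hm]; field_simp; linear_combination ρ s 1 5 * e5] at this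
      exact ⟨m, this⟩
  have s1 := k (ρ s 0 1) id 0 0 fun c => by simp [mul_comm]
  have s2 := k (ρ s 0 2) 0 id 0 fun c => by simp [mul_comm]
  have s3 := k (ρ s 0 3) 0 0 id fun c => by simp [mul_comm]
  obtain ⟨κ0, τr⟩ := two h.toFD (A := 2 * κ) (B := σ τ - τ) fun c => by
    obtain ⟨g, -, -, -, -, e⟩ := h.tr 0 0 0 0 c
    have t := eb _ _ (cn g)
    have := h.c04 s g
    have e5 := η g
    rw [t.h04, t.h02, t.h03, s1, s2, s3, hx, hy, a.h34, e] at this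
    rw [e] at e5
    linear_combination this - e5
  obtain rfl : κ = 0 := (mul_eq_zero.1 κ0).resolve_left (FD.p2 p.pp)
  replace τr := sub_eq_zero.1 τr
  have τ0 : τ ≠ 0 := n.resolve_left (by simp)
  have on : ∀ c, ∃ b, Eb ρ b c := fun c => by
    obtain ⟨b, e⟩ := ex (σ (-c / τ))
    exact ⟨b, by simpa [h.ss, τr, τ0, mul_div_cancel₀, neg_div] using eb _ b e⟩
  obtain ⟨w, -, -, w2, -, w0, -⟩ := ipk h p
  obtain ⟨⟨v, v0⟩, -⟩ := nk' h p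
  have k2 : ∀ l b, Cn ρ b (l * x) (l * y) → ∀ g, ρ g 1 3 * ρ b 3 6 = -x * (2 * l * σ (ρ g 4 5) + σ l * ρ g 4 5) :=
    fun l b c g => by
      have t := eb l b c
      have b56 : ρ b 5 6 = 0 := by simp [h.u1, c.h45]
      have b46 : ρ b 4 6 = 0 := by
        have c1 := ck1 h.toUT p.z12 c v
        have := h.c36 b v
        rw [(p3t h p on _ c1).2.1, c1.h35, b56, c.h34, c.h35] at this
        exact (mul_eq_zero.1 (by linear_combination this)).resolve_left v0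
      have c1 := ck1 h.toUT p.z12 c g
      have e1 := (p3t h p on _ c1).2.2 w
      have e2 := η w
      have e3 := h.c16 b g
      rw [c05' h c.1 c1, w2, t.h01, t.h02, t.h03, t.h04, τr, c.h15, c.h25] at e1
      rw [w2] at e2
      rw [c1.h13, c1.h14, c1.h15, b46, b56, c.h12, c.h13, c.h14, c.h15, p.z12, h.u1 g] at e3
      refine mul_left_cancel₀ (mul_ne_zero τ0 ((map_ne_zero σ).2 w0)) ?_
      linear_combination τ * σ (ρ w 4 5) * e3 + ρ ⁅b, g⁆ 1 6 * e2 - x * e1 - x * l * σ (ρ w 4 5) * η g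
  obtain ⟨l, hl⟩ := h.ex
  obtain ⟨u, au⟩ := ex 1
  obtain ⟨b, ab⟩ := ex l
  have u0 : ρ u 3 6 ≠ 0 := fun z => by
    obtain ⟨g, -, -, -, -, e⟩ := h.tr 0 0 0 0 1
    have := k2 1 u au g
    rw [z, e, map_one] at this
    exact mul_ne_zero (FD.p3 p.pp) x0 (by linear_combination this)
  obtain ⟨e1, e2⟩ := two h.toFD (A := ρ b 3 6 - σ l * ρ u 3 6) (B := 2 * (l * ρ u 3 6 - ρ b 3 6)) fun c => by
    obtain ⟨g, -, -, -, -, e⟩ := h.tr 0 0 0 0 c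
    have k3 := k2 1 u au g
    have k4 := k2 l b ab g
    rw [e] at k3 k4
    rw [map_one] at k3
    refine mul_left_cancel₀ x0 ?_
    linear_combination ρ b 3 6 * k3 - ρ u 3 6 * k4
  exact hl (mul_right_cancel₀ u0 (by linear_combination -e1 - (mul_eq_zero.1 e2).resolve_left (FD.p2 p.pp)))

theorem p3n (h : Md σ q ρ) : P3N ρ q := fun p s a => by
  obtain ⟨⟨g, hg⟩, -⟩ := nk' h p
  have e13 : ρ ⁅s, g⁆ 1 3 = 0 := by simp [h.c13, p.z12]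
  obtain ⟨e1, e2⟩ := p3n0 h p (h.n3 a g) e13 (h.c23 s g)
  rw [h.c14, e13] at e1
  rw [h.c24] at e2
  have s13 : ρ s 1 3 = 0 := by simpa [p.z12, a.h34, hg] using e1
  have s23 : ρ s 2 3 = 0 := by simpa [a.h34, hg] using e2
  exact ⟨s13, (p3n0 h p a s13 s23).1, s23, (p3n0 h p a s13 s23).2⟩

/-- all pairs of entries `34`, `35` occur on `K₄` -/
theorem d4 (h : Md σ q ρ) (p : PC ρ q) (z : ∀ s, K3 ρ s → ρ s 1 3 = 0 ∧ ρ s 1 4 = 0 ∧ ρ s 2 3 = 0 ∧ ρ s 2 4 = 0) (t u : F) :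
    ∃ r, K4 ρ r ∧ ρ r 3 4 = t ∧ ρ r 3 5 = u := by
  have cn : ∀ s, K3 ρ s → Cn ρ s (ρ s 1 5) (ρ s 2 5) := fun s a =>
    ⟨a, p.z12 s, (z s a).1, (z s a).2.1, (z s a).2.2.1, (z s a).2.2.2, rfl, rfl⟩
  obtain ⟨n, hn⟩ := n02 p
  have hφ : ∀ g ∈ h.S3, ∀ k ∈ h.S3, ρ (g * k) 1 5 = ρ g 1 5 + ρ k 1 5 := fun g _ k b => by
    have b := h.mem3.1 b
    simp [h.m15, p.z12, b.h35, b.h45]
  have i1 := ks_idx (φ := (ρ · 1 5)) hφ Set.finite_univ fun _ _ => trivial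
  have i2 := idx (H' := h.S1) (H := ks h.S3 (ρ · 1 5) hφ) (fun g a => ⟨h.mem3.2 (h.mem1.1 a).1.1, (h.mem1.1 a).h15⟩) (ρ · 2 5)
    (S := {c | σ (c * ρ n 0 2) = c * ρ n 0 2}) (Set.toFinite _)
    (fun g a => (p3e h p g _ (a.2 ▸ cn g (h.mem3.1 a.1))).2 n) fun g a k b e =>
      h.mem1.2 (ck (by
        have := cd h.toUT (cn g (h.mem3.1 a.1)) (cn k (h.mem3.1 b.1))
        simpa [show ρ g 1 5 = 0 from a.2, show ρ k 1 5 = 0 from b.2, show ρ g 2 5 = ρ k 2 5 from e] using this))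
  have i3 := h.toUT.i3 (fun g => (ρ g 3 4, ρ g 3 5)) (S := {x : F × F | ∃ r, K4 ρ r ∧ ρ r 3 4 = x.1 ∧ ρ r 3 5 = x.2}) (Set.toFinite _)
    (fun g a => ⟨g, a, rfl, rfl⟩) fun _ _ _ _ e => Prod.mk.inj e
  rw [h.cF] at i1
  have := (h.i1' p.t1).trans (i2.trans (Nat.mul_le_mul (h.ln hn) (i1.trans (Nat.mul_le_mul_left _
    (i3.trans (Nat.mul_le_mul_left _ h.i4))))))
  have e := Set.eq_of_subset_of_ncard_le (Set.subset_univ {x : F × F | ∃ r, K4 ρ r ∧ ρ r 3 4 = x.1 ∧ ρ r 3 5 = x.2})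
    (h.cF2 ▸ Nat.le_of_mul_le_mul_left (c := q ^ 5) (by linarith) (pow_pos (by linarith [h.q2]) _))
  exact (e ▸ Set.mem_univ (t, u) :)

theorem p3c (h : Md σ q ρ) : P3C ρ q := fun p z => by
  have cn : ∀ s, K3 ρ s → Cn ρ s (ρ s 1 5) (ρ s 2 5) := fun s a =>
    ⟨a, p.z12 s, (z s a).1, (z s a).2.1, (z s a).2.2.1, (z s a).2.2.2, rfl, rfl⟩
  have at' : ∀ a t, ∃ g, ρ g 4 5 = a ∧ ρ g 3 4 = t := fun a t => by
    obtain ⟨g, -, -, -, -, e⟩ := h.tr 0 0 0 0 a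
    obtain ⟨r, b, e', -⟩ := d4 h p z (t - ρ g 3 4) 0
    exact ⟨g * r, by rw [h.m45, e, b.h45, add_zero], by rw [h.m34, e', add_sub_cancel]⟩
  have cm' : ∀ r, K4 ρ r → ∀ g, ρ ⁅r, g⁆ 3 5 = ρ r 3 4 * ρ g 4 5 ∧ ρ ⁅r, g⁆ 1 3 = 0 ∧
      ρ ⁅r, g⁆ 1 4 = ρ r 1 3 * ρ g 3 4 - ρ g 1 3 * ρ r 3 4 ∧ ρ ⁅r, g⁆ 2 4 = ρ r 2 3 * ρ g 3 4 - ρ g 2 3 * ρ r 3 4 :=
    fun r a g => by
      have e13 : ρ ⁅r, g⁆ 1 3 = 0 := by simp [h.c13, p.z12]
      exact ⟨by simp [h.c35, a.h45], e13, by rw [h.c14, e13]; simp [p.z12], h.c24 r g⟩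
  obtain ⟨r, ar, r1, -⟩ := d4 h p z 1 0
  have cr := cm' r ar
  rw [r1] at cr
  generalize ρ r 1 3 = x1 at cr
  generalize ρ r 2 3 = y1 at cr
  have v4 : ∀ g, K4 ρ g → ρ g 1 3 = ρ g 3 4 * x1 ∧ ρ g 2 3 = ρ g 3 4 * y1 := fun g a => by
    have := z _ ⟨h.n4 ar g, h.c34 r g, by rw [(cr g).1, a.h45, mul_zero]⟩
    exact ⟨by linear_combination (cr g).2.2.1 - this.2.1, by linear_combination (cr g).2.2.2 - this.2.2.2⟩
  obtain ⟨x2, y2, v⟩ : ∃ x2 y2, ∀ g, ρ g 1 3 = ρ g 3 4 * x1 - ρ g 4 5 * x2 ∧ ρ g 2 3 = ρ g 3 4 * y1 - ρ g 4 5 * y2 := by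
    obtain ⟨k, k1, k0⟩ := at' 1 0
    refine ⟨-ρ k 1 3, -ρ k 2 3, fun g => ?_⟩
    obtain ⟨s, as, s1, -⟩ := d4 h p z (ρ g 4 5) 0
    obtain ⟨c1, c2, c3, c4⟩ := cm' s as k
    obtain ⟨d1, d2, d3, d4⟩ := cr g
    have := z (⁅s, k⁆ * ⁅r, g⁆⁻¹) ⟨⟨by rw [h.d45, h.c45, h.c45, sub_self]⟩, by rw [h.d34, h.c34, h.c34, sub_self], by
      rw [h.d35, h.c45, c1, d1, s1, k1]; ring⟩
    have e1 := h.d14 ⁅s, k⁆ ⁅r, g⁆
    have e2 := h.d24 ⁅s, k⁆ ⁅r, g⁆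
    rw [this.2.1, p.z12, h.c34, c3, d3, k0, s1] at e1
    rw [this.2.2.2, h.c34, c4, d4, k0, s1] at e2
    exact ⟨by linear_combination -e1, by linear_combination -e2⟩
  have cc : ∀ μ, ∃ c, ρ c 0 1 = 0 ∧ ρ c 0 2 = 0 ∧ ρ c 1 4 = μ * x2 ∧ ρ c 2 4 = μ * y2 ∧ ρ c 3 4 = 0 ∧ ∀ g,
      Cn ρ ⁅c, g⁆ (μ * (2 * ρ g 4 5 * x2 - ρ g 3 4 * x1)) (μ * (2 * ρ g 4 5 * y2 - ρ g 3 4 * y1)) := fun μ => by
    obtain ⟨k, k1, k0⟩ := at' μ 0
    obtain ⟨d1, d2, d3, d4⟩ := cr k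
    rw [(v k).1, k0, k1] at d3
    rw [(v k).2, k0, k1] at d4
    rw [k1] at d1
    refine ⟨⁅r, k⁆, h.c01 r k, by simp [h.c02, p.z12], by linear_combination d3, by linear_combination d4, h.c34 r k, fun g => ?_⟩
    have a : K3 ρ ⁅⁅r, k⁆, g⁆ := ⟨⟨h.c45 _ _⟩, h.c34 _ _, by simp [h.c35, h.c34, h.c45]⟩
    have c := cn _ a
    have e1 := h.c15 ⁅r, k⁆ g
    have e2 := h.c25 ⁅r, k⁆ g
    rw [c.h13, c.h14, p.z12, p.z12 g, d2, d3, d1, h.c45 r k, (v g).1] at e1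
    rw [c.h24, d4, d1, h.c45 r k, h.c23 r k, (v g).2] at e2
    convert c using 1
    exacts [by linear_combination -e1, by linear_combination -e2]
  have A1 : ∀ l, ∃ b, Cn ρ b (l * x1) (l * y1) := fun l => by
    obtain ⟨c, -, -, -, -, -, e⟩ := cc l
    obtain ⟨g, g1, g0⟩ := at' 0 (-1)
    exact ⟨_, by simpa [g1, g0] using e g⟩
  have A2 : ∀ l, ∃ b, Cn ρ b (l * x2) (l * y2) := fun l => by
    obtain ⟨c, -, -, -, -, -, e⟩ := cc l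
    obtain ⟨g, g1, g0⟩ := at' 2⁻¹ 0
    exact ⟨_, by simpa [g1, g0, FD.p2 p.pp] using e g⟩
  obtain ⟨g0, hg0⟩ : ∃ g, ρ g 1 3 ≠ 0 ∨ ρ g 2 3 ≠ 0 := by
    rcases (nk' h p).2 with ⟨-, g, e⟩ | ⟨-, g, e⟩
    exacts [⟨g, .inl e⟩, ⟨g, .inr e⟩]
  obtain ⟨x, y, x0, A⟩ : ∃ x y, x ≠ 0 ∧ ∀ l, ∃ b, Cn ρ b (l * x) (l * y) := by
    by_contra! n
    have k : ∀ x y, (∀ l, ∃ b, Cn ρ b (l * x) (l * y)) → x = 0 ∧ y = 0 := fun x y a => by
      obtain rfl : x = 0 := by_contra fun x0 => by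
        obtain ⟨l, e⟩ := n x y x0
        exact (a l).elim e
      exact ⟨rfl, y0 h p fun l => by simpa using a l⟩
    simp [v g0, k _ _ A1, k _ _ A2] at hg0
  have ln : ∀ x' y', (∀ l, ∃ b, Cn ρ b (l * x') (l * y')) → ∃ k, x' = k * x ∧ y' = k * y := fun x' y' a =>
    ⟨x' / x, by field_simp, sub_eq_zero.1 (y0 h p fun l => by
      obtain ⟨b, c⟩ := a l
      obtain ⟨k, d⟩ := A (l * (x' / x))
      exact ⟨_, by simpa [mul_sub, mul_assoc, x0] using cd h.toUT c d⟩)⟩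
  obtain ⟨k, rfl, rfl⟩ := ln _ _ A1
  obtain ⟨k', rfl, rfl⟩ := ln _ _ A2
  have m0 : ρ g0 3 4 * k - ρ g0 4 5 * k' ≠ 0 := fun e => by
    rcases hg0 with n | n
    exacts [n (by linear_combination (v g0).1 + x * e), n (by linear_combination (v g0).2 + y * e)]
  obtain ⟨κ, τ, n, η, eb⟩ := p3l h p _ _ x0 fun l => (A l).imp fun b c => ⟨c, by
    have t := h.k1 _ (ck1 h.toUT p.z12 c g0)
    have := h.c03 b g0
    rw [t.h02, t.h03, c.h13, c.h23, (v g0).1, (v g0).2] at this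
    exact (mul_eq_zero.1 (by linear_combination -this)).resolve_left m0⟩
  have e4 : ∀ μ, ∃ c, ∀ a t, c * t - μ * k' * (κ * a + τ * σ a) =
      κ * (μ * (2 * a * k' - t * k)) - σ τ * (σ μ * (2 * σ a * σ k' - σ t * σ k)) := fun μ => by
    obtain ⟨c, c1, c2, c3, c4, c5, e⟩ := cc μ
    refine ⟨ρ c 0 3, fun a t => ?_⟩
    obtain ⟨g, rfl, rfl⟩ := at' a t
    have t := eb (μ * (2 * ρ g 4 5 * k' - ρ g 3 4 * k)) _ (by convert e g using 1 <;> ring)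
    have := h.c04 c g
    rw [t.h04, t.h02, t.h03, c1, c2, c3, c4, c5] at this
    simp only [map_mul, map_sub, map_ofNat] at this
    linear_combination μ * k' * η g - this
  have τ1 : σ τ * σ k = 0 := by
    obtain ⟨c, e⟩ := e4 1
    exact (two h.toFD (A := c + κ * k) fun t => by
      have := e 0 t
      rw [map_zero, map_one] at this
      linear_combination this).2
  have τ2 : k' * τ = 0 := (two h.toFD (B := 2 * σ τ * σ k') fun μ => by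
    obtain ⟨c, e⟩ := e4 μ
    have := (two h.toFD (A := 3 * μ * k' * κ) (B := 2 * σ τ * σ μ * σ k' - μ * k' * τ) fun a => by
      have := e a 0
      rw [map_zero] at this
      linear_combination -this).2
    linear_combination -this).1
  obtain rfl : τ = 0 := by_contra fun τ0 => m0 (by
    rw [(mul_eq_zero.1 τ2).resolve_right τ0, (map_eq_zero σ).1 ((mul_eq_zero.1 τ1).resolve_left ((map_ne_zero σ).2 τ0))]; ring)
  have κ0 : κ ≠ 0 := n.resolve_right (by simp)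
  obtain ⟨t, a, t1⟩ := p.t1
  have e := (p3t h p (fun c => by
    obtain ⟨b, e⟩ := A (c / κ)
    exact ⟨b, by simpa [mul_div_cancel₀, κ0] using eb _ b e⟩) t a).2.2
  obtain ⟨u, w, l, u2, w2, u0, w4, hl⟩ := ipk h p
  have e1 := e u
  have e2 := e w
  have e3 := η u
  have e5 := η w
  rw [u2] at e1 e3
  rw [w2, w4] at e2 e5
  rw [t1] at e1 e2
  rw [map_mul] at e2
  refine mul_ne_zero x0 (mul_ne_zero ((map_ne_zero σ).2 u0) (sub_ne_zero.2 hl)) ?_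
  linear_combination x * e2 - l * x * e1 - ρ t 1 6 * e5 + l * ρ t 1 6 * e3

end H14.PG
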