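import Cfsg.Agent.H0.RU2

/-! S2196: chunks `IIB`, `IIM` (notes/RU.md). -/

set_option autoImplicit false
set_option linter.unusedSectionVars false
set_option linter.unusedVariables false

open Module MulAction H13.R3 H12 H0.RU
open H11 (hermT frob)
open H11.RS (PO)

namespace H14.RU

universe u

attribute [-simp] H11.frob_apply

variable {F : Type u} [Field F] [Fintype F] {q : ℕ} {hF : Fintype.card F = q ^ 2}
  {V : Type u} [AddCommGroup V] [Module F V] [Fintype V] {C : CForm (hermT hF) V}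
  {G : Type u} [Group G] [Fintype G] [DistribMulAction G V] [SMulCommClass G F V] {H : Subgroup G}
  {x y z v w s s' a b : V} {c c' d : F} {g g' h k t : G}

theorem sp_swap (hc : c ≠ 0) (h : c • x ∈ F ∙ z) (hx : x ≠ 0) : z ∈ F ∙ x := by
  obtain ⟨e, he⟩ := Submodule.mem_span_singleton.1 ((Submodule.smul_mem_iff _ hc).1 h)
  have e0 : e ≠ 0 := fun n => hx (by rw [← he, n, zero_smul])
  exact Submodule.mem_span_singleton.2 ⟨e⁻¹, by rw [← he, smul_smul, inv_mul_cancel₀ e0, one_smul]⟩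

/-- normalised involution -/
theorem hasI_norm (hi : HasI C H) : (2 : F) ≠ 0 ∧ ∃ g ∈ H, ∃ a b, Iv C g a b ∧ C.B b a = 1 ∧
    C.B a b = 1 ∧ Is C a ∧ Is C b := by
  obtain ⟨h2, g, hg, a, b, hi⟩ := hi
  have ia : Is C a := ⟨fun e => hi.2.2.1 (by simp [e]), hi.1⟩
  obtain ⟨b', h1, h3, -⟩ := hi.at l_ln ia
  exact ⟨h2, g, hg, a, b', h1, h3, Bone h3, ia, fun e => h1.2.2.1 (by simp [e]), h1.2.1⟩

theorem star (un : Un C G) (ni : ∀ x, Is C x → ∀ s ∈ Sx C H x, C.B s s = 0 → s ∈ F ∙ x)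
    (hx : Is C x) (hz : Is C z) (hs : s ∈ Sx C H x) (hs' : s ∉ F ∙ x) (h1 : C.B x z = 0)
    (h2 : C.B s z = 0) (h3 : z ∉ F ∙ x) (hw : w ∈ Sx C H z) : C.B x w = 0 ∧ C.B s w = 0 := by
  obtain ⟨xs, u, hu, c, uu⟩ := hs
  have fz : u • z = z := uu.fix h1 h2
  have cl : ∀ w ∈ Sx C H z, u • w - w ∈ Sx C H z := fun w hw =>
    un.sx_sub hz (fz ▸ un.sx_conj hu hw) hw
  have n0 : C.B s s ≠ 0 := fun e => hs' (ni x hx s ⟨xs, u, hu, c, uu⟩ e)
  have sx : C.B s x = 0 := Bsw xs
  have key : ∀ e : F, e • x ∈ Sx C H z → e = 0 := fun e he => by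
    by_contra n
    exact h3 (sp_swap n (ni z hz _ he (by simp [hx.2])) hx.1)
  have e1 : C.B x w = 0 := by
    have := key (-(C.B x w * C.B s s)) (by
      convert cl _ (cl _ hw) using 1
      rw [uu (u • w - w), uu w]
      simp only [map_add, map_sub, map_smul, smul_eq_mul, xs, sx, hx.2]
      module)
    simpa [n0] using this
  refine ⟨e1, ?_⟩
  have := key (-C.B s w) (by
    convert cl _ hw using 1
    rw [uu w, e1]; module)
  simpa using this

theorem iib : IIB C H := by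
  intro un _ hi ex ni
  obtain ⟨h2, g, hg, a, b, iv, ba, ab, ia, ib⟩ := hasI_norm hi
  obtain ⟨s, hs, hs'⟩ := ex a ia
  have n6 := un.n6
  have d1 := fr_pp_ln un.nd (⟨ia.1, hs'⟩ : Ind F a s)
  obtain ⟨x0, p0, q0, i0⟩ := ex_is_off (C := C) (C.perp (ln F a s)) (F ∙ a) (by
    rw [finrank_span_singleton ia.1]; omega)
  obtain ⟨p1, p2⟩ := mem_pp_ln.1 p0
  have sa : C.B s a = 0 := Bsw hs.1
  have p3 := Bsw p1
  obtain ⟨x', hx'⟩ : ∃ x', x' = x0 - C.B b x0 • a := ⟨_, rfl⟩
  have r1 : C.B a x' = 0 := by simp [hx', p1, ia.2]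
  have r2 : C.B b x' = 0 := by simp [hx', ba]
  have r3 : C.B s x' = 0 := by simp [hx', p2, sa]
  have r4 : C.B x' x' = 0 := by simp [hx', p1, p3, i0, ia.2]
  have r5 : x' ∉ F ∙ a := fun n => q0 (by
    simpa [hx'] using add_mem n (Submodule.smul_mem _ (C.B b x0) (Submodule.mem_span_singleton_self a)))
  have r6 := Bsw r1
  have ind : ∀ e f : F, e • a + f • x' = 0 → e = 0 ∧ f = 0 := ind_iff.1 ⟨ia.1, r5⟩
  have iz : Is C (a + x') := ⟨fun e => one_ne_zero (ind 1 1 (by simpa using e)).1,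
    by simp [r1, r4, r6, ia.2]⟩
  have iz' : Is C (x' - a) := ⟨fun e => one_ne_zero (ind (-1) 1 (by rw [← e]; module)).2,
    by simp [r1, r4, r6, ia.2]⟩
  obtain ⟨s2, k1, k2⟩ := ex _ iz
  have m1 := (star un ni ia iz hs hs' (by simp [r1, ia.2]) (by simp [r3, sa]) (fun n => r5 (by
    simpa using sub_mem n (Submodule.mem_span_singleton_self a))) k1).1
  have m2 : C.B x' s2 = 0 := by simpa [m1] using k1.1
  have gz : g • (a + x') = x' - a := by
    rw [smul_add, iv.2.2.2.1, iv.2.2.2.2.2 _ r1 r2]; abel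
  have m3 := (star un ni iz iz' k1 k2 (by simp [r1, r4, r6, ia.2]) (by simp [Bsw m1, Bsw m2])
    (fun n => by
      obtain ⟨e, he⟩ := Submodule.mem_span_singleton.1 n
      have := ind (e + 1) (e - 1) (by linear_combination (norm := module) he)
      exact h2 (by linear_combination this.1 - this.2)) (gz ▸ un.sx_conj hg k1)).2
  rw [iv.apply, m1] at m3
  exact k2 (ni _ iz _ k1 (by simpa [Bsw m1] using m3))

/-- the projection to the line of an involution -/
theorem prj (un : Un C G) (h2 : (2 : F) ≠ 0) (hg : g ∈ H) (iv : Iv C g a b) (ba : C.B b a = 1)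
    (hy : Is C y) (h1 : C.B a y = 0) (h3 : C.B b y = 0) (hs : s ∈ Sx C H y) :
    C.B b s • a + C.B a s • b ∈ Sx C H y := by
  refine un.sx_half hy.2 h2 ?_
  convert un.sx_sub hy hs (iv.2.2.2.2.2 _ h1 h3 ▸ un.sx_conj hg hs) using 1
  rw [iv.apply, ba, Bone ba]
  simp only [div_one]; module

theorem prj_c (un : Un C G) (nt : NoT C H) (hg : g ∈ H) (iv : Iv C g a b)
    (hy : Is C y) (h1 : C.B a y = 0) (h3 : C.B b y = 0) (hs : s ∈ ln F a b) (ys : C.B y s = 0)
    (hk : k ∈ H) (uu : Uu C k y s c) : 2 * c = C.B s s := by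
  have e1 := un.uu_conj uu g
  rw [iv.2.2.2.2.2 _ h1 h3, iv.neg hs] at e1
  have e2 := un.uu_c nt hy (by simp [ys]) (H.mul_mem (H.mul_mem hg hk) (H.inv_mem hg)) (H.inv_mem hk)
    e1 (un.uu_inv uu hy ys)
  have e3 := un.uu_trc uu hy ys
  linear_combination e3 + e2

theorem ti_dim (nd : C.Nondeg) {X : Submodule F V} (hX : X ≤ C.perp X) (ia : Is C a)
    (h1 : a ∈ C.perp X) (h2 : a ∉ X) : 2 * finrank F X + 2 ≤ finrank F V := by
  have e1 : X ⊔ (F ∙ a) ≤ C.perp (X ⊔ F ∙ a) := by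
    rw [C.perp_sup]
    refine sup_le (le_inf hX (C.le_perp_comm.1 ((Submodule.span_singleton_le_iff_mem _ _).2 h1)))
      ((Submodule.span_singleton_le_iff_mem _ _).2 ⟨h1, mem_pp_sp.2 ia.2⟩)
  have e2 := Submodule.finrank_mono e1
  have e3 := fr_pp nd (X ⊔ F ∙ a)
  have e4 : finrank F X < finrank F ↥(X ⊔ F ∙ a) :=
    Submodule.finrank_lt_finrank_of_lt (lt_of_le_of_ne le_sup_left fun e => h2
      (e ▸ (le_sup_right : (F ∙ a) ≤ X ⊔ F ∙ a) (Submodule.mem_span_singleton_self a)))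
  omega

theorem iim : IIM C H := by
  intro un nt hi hX
  classical
  obtain ⟨h2, g, hg, a, b, iv, ba, ab, ia, ib⟩ := hasI_norm hi
  have n6 := un.n6
  have q3 := un.q3
  let T : Finset V := insert a ((Finset.univ.filter fun e : F => e + frob hF e = 0).image
    fun e => b + e • a)
  have cT : T.card ≤ q + 1 := (Finset.card_insert_le _ _).trans (Nat.succ_le_succ
    (Finset.card_image_le.trans (by
      rw [← Set.ncard_coe_finset]; simpa using (ncard_trc (hF := hF) (c := 0) (by simp)).le)))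
  have iT : ∀ t ∈ T, Is C t := fun t ht => by
    simp only [T, Finset.mem_insert, Finset.mem_image, Finset.mem_filter, Finset.mem_univ,
      true_and] at ht
    obtain rfl | ⟨e, he, rfl⟩ := ht
    · exact ia
    · refine ⟨fun n => ?_, by simp [ia.2, ib.2, ab, ba, he, add_comm]⟩
      have := congrArg (C.B a) n
      simp [ab, ia.2] at this
  have cov : ∀ y, y ∈ C.perp (ln F a b) → Is C y → ∃ t ∈ T, y ∈ GX C H t := by
    intro y hy iy
    obtain ⟨y1, y2⟩ := mem_pp_ln.1 hy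
    have gy := iv.2.2.2.2.2 _ y1 y2
    obtain ⟨s, ⟨s1, s2⟩, s3⟩ : ∃ s ∈ {s | s ∈ Sx C H y ∧ C.B s s = 0}, s ∉ C.perp (ln F a b) := by
      by_contra n
      push Not at n
      have l := C.le_perp_comm.1 (Submodule.span_le.2 n : GX C H y ≤ C.perp (ln F a b))
      have := (hX y iy).1 ((hX y iy).2 b (l r_ln) ib.2) a ((hX y iy).2 a (l l_ln) ia.2)
      exact one_ne_zero (ab.symm.trans this)
    obtain ⟨t, ht⟩ : ∃ t, t = C.B b s • a + C.B a s • b := ⟨_, rfl⟩
    have t1 : t ∈ Sx C H y := ht ▸ prj un h2 hg iv ba iy y1 y2 s1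
    have sg : s ∈ GX C H y := Submodule.subset_span ⟨s1, s2⟩
    have t2 : t ∈ GX C H y := by
      refine (Submodule.smul_mem_iff _ h2).1 ?_
      convert sub_mem sg (gy ▸ un.gx_conj hg sg) using 1
      rw [iv.apply, ba, ab, ht]
      simp only [div_one]; module
    have t3 : C.B t t = 0 := (hX y iy).1 t2 t t2
    obtain ⟨yt, k, hk, c, uu⟩ := t1
    have c0 : c = 0 := by
      simpa [t3, h2] using prj_c un nt hg iv iy y1 y2 (mem_ln.2 ⟨_, _, ht.symm⟩) yt hk uu
    subst c0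
    have t4 : y ∈ GX C H t := by
      have : -y ∈ GX C H t := Submodule.subset_span
        (⟨⟨by simp [Bsw yt], k, hk, 0, uu.symm⟩, by simp [iy.2]⟩ : -y ∈ Sx C H t ∧ C.B (-y) (-y) = 0)
      simpa using neg_mem this
    by_cases as : C.B a s = 0
    · have bs : C.B b s ≠ 0 := fun n => s3 (mem_pp_ln.2 ⟨as, n⟩)
      refine ⟨a, Finset.mem_insert_self _ _, ?_⟩
      rw [← un.gx_sml bs]
      simpa [ht, as] using t4
    · have et : t = C.B a s • (b + (C.B b s / C.B a s) • a) := by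
        rw [ht, smul_add, smul_smul, mul_div_cancel₀ _ as, add_comm]
      refine ⟨b + (C.B b s / C.B a s) • a, Finset.mem_insert_of_mem (Finset.mem_image.2
        ⟨_, Finset.mem_filter.2 ⟨Finset.mem_univ _, ?_⟩, rfl⟩), by rw [← un.gx_sml as, ← et]; exact t4⟩
      rw [et] at t3
      generalize C.B b s / C.B a s = e at t3
      simp only [Bl, map_add, map_smul, LinearMap.add_apply, smul_eq_mul, ia.2, ib.2, ab, ba] at t3
      refine mul_left_cancel₀ (mul_ne_zero as (fr_ne (hF := hF) as)) ?_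
      linear_combination t3
  choose! f f1 f2 using cov
  have d1 := fr_pp_ln un.nd (ind_of_ne ia.2 iv.2.2.1)
  have cnt := ncard_is_on (nd_pp_ln un.nd ia.2 ib.2 iv.2.2.1) (by omega)
  obtain ⟨m, hm⟩ : ∃ m, finrank F V = m + 5 := ⟨finrank F V - 5, by omega⟩
  rw [show finrank F (C.perp (ln F a b)) = m + 3 by omega] at cnt
  have bd := Finset.card_le_mul_card_image_of_maps_to (f := f)
    (s := Finset.univ.filter fun v => v ∈ C.perp (ln F a b) ∧ Is C v) (t := T)
    (fun y hy => by simp only [Finset.mem_filter] at hy; exact f1 y hy.2.1 hy.2.2) (q ^ (m + 3) - 1)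
    (fun t ht => by
      have e1 := ti_dim un.nd (X := GX C H t ⊓ C.perp (ln F a b))
        (inf_le_left.trans ((hX t (iT t ht)).1.trans (C.perp_anti inf_le_left))) ia
        (C.perp_anti inf_le_right (C.le_perp_perp _ l_ln)) fun n =>
          one_ne_zero (ba.symm.trans (mem_pp_ln.1 n.2).2)
      have e2 := ncard_sub (F := F) (GX C H t ⊓ C.perp (ln F a b))
      have e3 : q ^ (2 * finrank F ↥(GX C H t ⊓ C.perp (ln F a b))) ≤ q ^ (m + 3) :=
        Nat.pow_le_pow_right (by omega) (by omega)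
      rw [hF, ← pow_mul] at e2
      rw [← Set.ncard_coe_finset]
      refine le_trans (Set.ncard_le_ncard (t := (GX C H t ⊓ C.perp (ln F a b) : Submodule F V) \ {0})
        (fun y hy => ?_)) ?_
      · simp only [Finset.coe_filter, Finset.mem_filter, Finset.mem_univ, true_and,
          Set.mem_setOf_eq] at hy
        exact ⟨⟨hy.2 ▸ f2 y hy.1.1 hy.1.2, hy.1.1⟩, hy.1.2.1⟩
      · rw [Set.ncard_diff_singleton_of_mem (zero_mem _), e2]; omega)
  rw [← Set.ncard_coe_finset] at bd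
  simp only [Finset.coe_filter, Finset.mem_univ, true_and] at bd
  have b2 : ((q ^ (m + 3) - 1 : ℕ) : ℤ) = (q : ℤ) ^ (m + 3) - 1 := by
    rw [Nat.cast_sub (Nat.one_le_pow _ _ (by omega))]; simp
  have b3 := (Nat.cast_le (α := ℤ)).2 (bd.trans (Nat.mul_le_mul_left _ cT))
  rw [cnt, Nat.cast_mul, b2] at b3
  have a1 := (le_aa q (m + 3)).1
  have a2 := (le_aa q (m + 3 - 1)).1
  have q3' : (3 : ℤ) ≤ q := by exact_mod_cast q3
  have p1 : (q : ℤ) ^ 3 ≤ q ^ (m + 3 - 1) := pow_le_pow_right₀ (by omega) (by omega)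
  have p2 : (q : ℤ) ^ 3 ≤ q ^ (m + 3) := pow_le_pow_right₀ (by omega) (by omega)
  have p3 : (q : ℤ) + 3 ≤ q ^ 3 := by nlinarith [mul_nonneg (sub_nonneg.2 q3') (sub_nonneg.2 q3')]
  push_cast at b3
  nlinarith [mul_le_mul a1 (show (q : ℤ) + 2 ≤ aa q (m + 3 - 1) by omega) (by omega) (by omega)]

end H14.RU
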