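import Cfsg.Agent.H14.RU1

/-! S2196: chunks `IIA`, `SPH`, `IIE`, `II` (notes/RU.md). -/

set_option autoImplicit false
set_option linter.unusedSectionVars false
set_option linter.unusedVariables false

open Module MulAction H13.R3 H12 H0.RU
open H11 (hermT frob)
open H11.RS (PO)

namespace H14.RU

universe u

attribute [-simp] H11.frob_apply

variable {F : Type u} [Field F] [Fintype F] {q : ℕ} {hF : Fintype.card F = q ^ 2}
  {V : Type u} [AddCommGroup V] [Module F V] [Fintype V] {C : CForm (hermT hF) V}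
  {G : Type u} [Group G] [Fintype G] [DistribMulAction G V] [SMulCommClass G F V] {H : Subgroup G}
  {x y z v w s s' a b : V} {c c' d : F} {g g' h k t : G}

variable (C H) in
/-- adjacency of two points of a totally isotropic line -/
def Adj (x y : V) : Prop := ∃ e : F, e ≠ 0 ∧ ∃ g ∈ H, Uu C g x (e • y) 0

theorem Adj.symm (h : Adj C H x y) : Adj C H y x := by
  obtain ⟨e, he, g, hg, uu⟩ := h
  refine ⟨-frob hF e, neg_ne_zero.2 (fr_ne he), g, hg, ?_⟩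
  simpa using Uu.sml.1 uu.symm

theorem Adj.sml (h : Adj C H x y) (hc : c ≠ 0) : Adj C H x (c • y) := by
  obtain ⟨e, he, g, hg, uu⟩ := h
  exact ⟨e / c, div_ne_zero he hc, g, hg, by rwa [smul_smul, div_mul_cancel₀ _ hc]⟩

theorem adj_of (un : Un C G) (fl : Fl C x y) (hs : s ∈ Sx C H x) (hs' : s' ∈ Sx C H y)
    (h1 : C.B s y = 0) (h2 : C.B x s' = 0) (h : C.B s s' ≠ 0) : Adj C H y x := by
  obtain ⟨xs, u, hu, c, uu⟩ := hs
  obtain ⟨ys, u', hu', c', uu'⟩ := hs'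
  have e1 := un.uu_conj uu' u
  rw [uu.fix fl.2.2.1 h1, uu s', h2] at e1
  have yx := Bsw fl.2.2.1
  have e2 := un.uu_mul e1 (un.uu_inv uu' fl.isr ys) fl.2.1 (by simp [ys, yx]) (by simp [ys])
  refine ⟨-C.B s s', neg_ne_zero.2 h, _,
    H.mul_mem (H.mul_mem (H.mul_mem hu hu') (H.inv_mem hu)) (H.inv_mem hu'), ?_⟩
  convert e2 using 1
  · module
  · simp [h2, un.uu_trc uu' fl.isr ys]

theorem deg (un : Un C G) (nt : NoT C H) (h2 : (2 : F) ≠ 0) (fl : Fl C x y) (hs : s ∈ Sx C H x)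
    (h : C.B s y ≠ 0) : 2 * {r : F | Adj C H x (y + r • x)}.ncard ≤ (q - 1) * q := by
  classical
  have : ∀ r : F, ∃ e : F, Adj C H x (y + r • x) → e ≠ 0 ∧ ∃ g ∈ H, Uu C g x (e • (y + r • x)) 0 :=
    fun r => by
      by_cases n : Adj C H x (y + r • x)
      · obtain ⟨e, he⟩ := n
        exact ⟨e, fun _ => he⟩
      · exact ⟨0, fun m => (n m).elim⟩
  choose e he using this
  have xy := fl.2.2.1
  have sx : C.B s x = 0 := Bsw hs.1
  let β : F × Bool → F := fun p => if p.2 then e p.1 else -e p.1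
  have hβ : ∀ p : F × Bool, Adj C H x (y + p.1 • x) → β p ≠ 0 ∧ ∃ g ∈ H,
      Uu C g x (β p • y) (-(β p * p.1) + frob hF (β p * p.1)) := by
    rintro ⟨r, i⟩ hr
    obtain ⟨e0, g, hg, uu⟩ := he r hr
    cases i
    · refine ⟨by simpa [β] using e0, _, H.inv_mem hg, ?_⟩
      have := un.uu_inv uu fl.1 (by simp [xy, fl.1.2])
      rw [← neg_smul, smul_add, smul_smul, Uu.shift] at this
      simpa [β] using this
    · refine ⟨by simpa [β] using e0, _, hg, ?_⟩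
      rw [smul_add, smul_smul, Uu.shift] at uu
      simpa [β] using uu
  have := Set.ncard_le_ncard_of_injOn (s := {r : F | Adj C H x (y + r • x)} ×ˢ (Set.univ : Set Bool))
    (t := ({a : F | frob hF a = a} \ {0}) ×ˢ {a : F | frob hF a = a})
    (fun p => (β p * C.B s y, β p * p.1 + frob hF (β p * p.1))) (fun p hp => by
      obtain ⟨b0, g, hg, uu⟩ := hβ p hp.1
      refine ⟨⟨?_, mul_ne_zero b0 h⟩, by simp [add_comm]⟩
      have := un.sx_sym nt fl.1 hs (⟨by simp [xy], g, hg, _, uu⟩ : β p • y ∈ Sx C H x)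
      simpa [Bs] using this.symm) (fun p hp p' hp' e1 => by
      obtain ⟨b0, g, hg, uu⟩ := hβ p hp.1
      obtain ⟨-, g', hg', uu'⟩ := hβ p' hp'.1
      simp only [Prod.mk.injEq] at e1
      have e2 : β p = β p' := mul_right_cancel₀ h e1.1
      rw [← e2] at uu' e1
      have e3 := un.uu_c nt fl.1 (by simp [xy]) hg hg' uu uu'
      have e4 : p.1 = p'.1 := mul_left_cancel₀ (mul_ne_zero h2 b0) (by
        linear_combination e1.2 - e3)
      obtain ⟨r, i⟩ := p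
      obtain ⟨r', i'⟩ := p'
      obtain rfl : r = r' := e4
      have e0 := (he r hp.1).1
      cases i <;> cases i' <;> first | rfl | skip
      all_goals
        simp only [β, Bool.false_eq_true, if_false, if_true] at e2
        exact (mul_ne_zero h2 e0 (by first | linear_combination e2 | linear_combination -e2)).elim)
  rw [Set.ncard_prod, Set.ncard_prod, Set.ncard_diff_singleton_of_mem (by simp), ncard_fix] at this
  simpa [mul_comm] using this

theorem ex_sx (hX : ∀ v ∈ C.perp (GX C H x), C.B v v = 0 → v ∈ F ∙ x) (hy : C.B y y = 0)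
    (h : y ∉ F ∙ x) : ∃ s ∈ Sx C H x, C.B s y ≠ 0 := by
  by_contra n
  push Not at n
  exact h (hX y (C.mem_perp_span.2 fun s hs => n s hs.1) hy)

theorem three (un : Un C G) (nt : NoT C H) (h2 : (2 : F) ≠ 0)
    (hX : ∀ x, Is C x → ∀ v ∈ C.perp (GX C H x), C.B v v = 0 → v ∈ F ∙ x) (fl : Fl C x y) :
    ∃ r r' : F, r' ≠ 0 ∧ ¬ Adj C H x (y + r • x) ∧ ¬ Adj C H x (y + r • x + r' • x) ∧
      ¬ Adj C H (y + r • x) (y + r • x + r' • x) := by
  have dg : ∀ x y, Fl C x y → 2 * {r : F | Adj C H x (y + r • x)}.ncard ≤ (q - 1) * q :=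
    fun x y fl => by
      obtain ⟨s, hs, h⟩ := ex_sx (hX x fl.1) fl.2.1 fl.2.2.2
      exact deg un nt h2 fl hs h
  have q3 := un.q3
  have ex : ∀ S : Set F, S.ncard ≤ (q - 1) * q + 1 → ∃ r, r ∉ S := fun S hS => by
    by_contra n
    push Not at n
    rw [Set.eq_univ_of_forall n, Set.ncard_univ, Nat.card_eq_fintype_card, hF] at hS
    obtain ⟨m, rfl⟩ : ∃ m, q = m + 1 := ⟨q - 1, by omega⟩
    simp only [Nat.add_sub_cancel] at hS
    nlinarith
  obtain ⟨r, hr⟩ := ex {r : F | Adj C H x (y + r • x)} (by have := dg x y fl; omega)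
  have f2 := fl.add r
  obtain ⟨r', hr'⟩ := ex (insert 0 ({r' : F | Adj C H x (y + r • x + r' • x)} ∪
      (fun a => a⁻¹) '' {r' : F | Adj C H (y + r • x) (x + r' • (y + r • x))})) (by
    have := dg _ _ f2
    have := dg _ _ f2.symm
    refine (Set.ncard_insert_le _ _).trans (Nat.succ_le_succ ((Set.ncard_union_le _ _).trans ?_))
    rw [Set.ncard_image_of_injective _ inv_injective]
    omega)
  simp only [Set.mem_insert_iff, Set.mem_union, Set.mem_setOf_eq, not_or, Set.mem_image] at hr'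
  refine ⟨r, r', hr'.1, hr, hr'.2.1, fun n => hr'.2.2 ⟨r'⁻¹, ?_, inv_inv _⟩⟩
  convert n.sml (inv_ne_zero hr'.1) using 1
  rw [smul_add _ (y + r • x), smul_smul, inv_mul_cancel₀ hr'.1, one_smul, add_comm]

theorem iia : IIA C H := by
  intro un nt hi hX
  obtain ⟨h2, g, hg, a, b, iv, ba, ab, ia, ib⟩ := hasI_norm hi
  have n6 := un.n6
  have d1 := fr_pp_ln un.nd (ind_of_ne ia.2 iv.2.2.1)
  obtain ⟨x, xD, ix⟩ := ex_is (C := C) (U := C.perp (ln F a b)) (by omega)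
  have d2 := Submodule.finrank_sup_add_finrank_inf_eq (C.perp (ln F a b)) (C.perp (F ∙ x))
  have d3 := fr_pp_sp un.nd ix.1
  have d4 := Submodule.finrank_le (C.perp (ln F a b) ⊔ C.perp (F ∙ x))
  obtain ⟨y, ⟨yD, xy⟩, y1, y2⟩ := ex_is_off (C := C) (C.perp (ln F a b) ⊓ C.perp (F ∙ x)) (F ∙ x)
    (by rw [finrank_span_singleton ix.1]; omega)
  have fl : Fl C x y := ⟨ix, y2, mem_pp_sp.1 xy, y1⟩
  obtain ⟨r, r', r0, n1, n2, n3⟩ := three un nt h2 hX fl
  -- no isotropic vector of `D` is orthogonal to `Σ(z)`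
  have A : ∀ z ∈ C.perp (ln F a b), Is C z → ∀ v ∈ ln F a b, Is C v →
      ∃ t ∈ Sx C H z, t ∈ ln F a b ∧ C.B t v ≠ 0 := fun z zD iz v vD iv' => by
    obtain ⟨s, hs, h⟩ := ex_sx (hX z iz) iv'.2 fun n => by
      obtain ⟨e, rfl⟩ := Submodule.mem_span_singleton.1 n
      exact iv'.1 (nd_ln ia.2 ib.2 iv.2.2.1 _ vD fun w hw =>
        Bsw (Submodule.smul_mem _ e zD w hw))
    refine ⟨_, prj un h2 hg iv ba iz (mem_pp_ln.1 zD).1 (mem_pp_ln.1 zD).2 hs,
      mem_ln.2 ⟨_, _, rfl⟩, ?_⟩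
    obtain ⟨e, f, rfl⟩ := mem_ln.1 vD
    convert h using 1
    simp [ia.2, ib.2, ab, ba, Bs, mul_comm, add_comm]
  have O : ∀ z ∈ C.perp (ln F a b), ∀ z' ∈ C.perp (ln F a b), Fl C z z' → ¬ Adj C H z z' →
      ∀ t ∈ Sx C H z, t ∈ ln F a b → ∀ t' ∈ Sx C H z', t' ∈ ln F a b → C.B t t' = 0 :=
    fun z zD z' zD' f n t h1 h3 t' h4 h5 => by
      by_contra m
      exact n (adj_of un f h1 h4 (zD' t h3) (Bsw (zD t' h5)) m).symm
  have D2 : y + r • x ∈ C.perp (ln F a b) := add_mem yD (Submodule.smul_mem _ _ xD)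
  have D3 : y + r • x + r' • x ∈ C.perp (ln F a b) := add_mem D2 (Submodule.smul_mem _ _ xD)
  have f2 := fl.add r
  have f3 := f2.add r'
  have f4 : Fl C (y + r • x) (y + r • x + r' • x) := by
    simpa [add_comm] using f2.symm.tr (a := 1) 1 one_ne_zero r0
  obtain ⟨t1, a1, b1, c1⟩ := A _ xD ix a l_ln ia
  obtain ⟨t2, a2, b2, c2⟩ := A _ D2 f2.isr a l_ln ia
  obtain ⟨t3, a3, b3, c3⟩ := A _ D3 f3.isr a l_ln ia
  have o12 := O _ xD _ D2 f2 n1 _ a1 b1 _ a2 b2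
  have o13 := O _ xD _ D3 f3 n2 _ a1 b1 _ a3 b3
  have o23 := O _ D2 _ D3 f4 n3 _ a2 b2 _ a3 b3
  have N2 : C.B t2 t2 ≠ 0 := fun n => by
    obtain ⟨t, e1, e2, e3⟩ := A _ xD ix t2 b2 ⟨fun e => c2 (by simp [e]), n⟩
    exact e3 (O _ xD _ D2 f2 n1 _ e1 e2 _ a2 b2)
  obtain ⟨α1, β1, rfl⟩ := mem_ln.1 b1
  obtain ⟨α2, β2, rfl⟩ := mem_ln.1 b2
  obtain ⟨α3, β3, rfl⟩ := mem_ln.1 b3
  simp only [Bl, map_add, map_smul, LinearMap.add_apply, smul_eq_mul, ia.2, ib.2, ab, ba] at c1 c3 o12 o13 o23 N2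
  have c4 : frob hF β1 ≠ 0 := by simpa using c1
  have c5 : β3 ≠ 0 := fun n => c3 (by simp [n])
  have e1 : β2 * α3 = β3 * α2 := mul_left_cancel₀ c4 (by linear_combination β2 * o13 - β3 * o12)
  exact N2 (mul_left_cancel₀ c5 (by linear_combination β2 * o23 - frob hF β2 * e1))

theorem sph : SPH C := by
  intro ge W h1 h2
  classical
  have n6 := ge.n6
  have sy : ∀ v w, Is C v → Is C w → w ∈ C.perp (W v) → v ∈ C.perp (W w) := fun v w hv hw h =>
    C.le_perp_comm.1 (h2 v w hv hw h) (h1 v hv).1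
  have q0 : (q : F) = 0 := by
    have := FiniteField.cast_card_eq_zero F
    rw [hF, Nat.cast_pow] at this
    exact pow_eq_zero_iff two_ne_zero |>.1 this
  have c0 : ∀ U : Submodule F V, 2 ≤ finrank F U →
      (({v | v ∈ U ∧ C.B v v = 0}.ncard : ℕ) : F) = 0 := fun U h => by
    obtain ⟨m, hm⟩ := iso_dvd (C := C) h
    rw [hm, Nat.cast_mul, q0, zero_mul]
  let N : Matrix V V F := Matrix.of fun v w =>
    if Is C v ∧ C.B w w = 0 ∧ w ∉ C.perp (W v) then 1 else 0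
  have hN : N * N = 0 := by
    ext v w
    simp only [N, Matrix.mul_apply, Matrix.of_apply, ite_zero_mul_ite_zero, mul_one, Finset.sum_boole,
      Matrix.zero_apply, ← Set.ncard_coe_finset, Finset.coe_filter, Finset.mem_univ, true_and]
    by_cases hv : Is C v
    swap
    · simp [hv]
    by_cases hw : Is C w
    swap
    · rw [Set.eq_empty_of_forall_notMem (s := {u | _}) fun u hu =>
        hw ⟨fun e => hu.2.2.2 (e ▸ zero_mem _), hu.2.2.1⟩]
      simp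
    have e : {u | (Is C v ∧ C.B u u = 0 ∧ u ∉ C.perp (W v)) ∧ Is C u ∧ C.B w w = 0 ∧ w ∉ C.perp (W u)} =
        {u | u ∈ (⊤ : Submodule F V) ∧ C.B u u = 0} \ ({u | u ∈ C.perp (W v) ∧ C.B u u = 0} ∪
          {u | u ∈ C.perp (W w) ∧ C.B u u = 0}) := Set.ext fun u =>
      ⟨fun h => ⟨⟨trivial, h.1.2.1⟩, fun k => k.elim (fun k => h.1.2.2 k.1)
        fun k => h.2.2.2 (sy w u hw h.2.1 k.1)⟩, fun h =>
        have u0 : Is C u := ⟨fun e => h.2 (Or.inl ⟨e ▸ zero_mem _, h.1.2⟩), h.1.2⟩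
        ⟨⟨hv, h.1.2, fun k => h.2 (Or.inl ⟨k, h.1.2⟩)⟩, u0, hw.2,
          fun k => h.2 (Or.inr ⟨sy u w u0 hw k, h.1.2⟩)⟩⟩
    have e1 := congrArg (Nat.cast (R := F)) (Set.ncard_diff_add_ncard_of_subset
      (s := {u | u ∈ C.perp (W v) ∧ C.B u u = 0} ∪ {u | u ∈ C.perp (W w) ∧ C.B u u = 0})
      (t := {u | u ∈ (⊤ : Submodule F V) ∧ C.B u u = 0})
      (fun u k => ⟨trivial, k.elim And.right And.right⟩))
    have e2 := congrArg (Nat.cast (R := F)) (Set.ncard_union_add_ncard_inter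
      {u | u ∈ C.perp (W v) ∧ C.B u u = 0} {u | u ∈ C.perp (W w) ∧ C.B u u = 0})
    have d1 := fr_pp ge.nd (W v)
    have d2 := fr_pp ge.nd (W w)
    have d3 := Submodule.finrank_sup_add_finrank_inf_eq (C.perp (W v)) (C.perp (W w))
    have d4 := Submodule.finrank_le (C.perp (W v) ⊔ C.perp (W w))
    rw [(h1 v hv).2.1] at d1
    rw [(h1 w hw).2.1] at d2
    rw [show {u | u ∈ C.perp (W v) ∧ C.B u u = 0} ∩ {u | u ∈ C.perp (W w) ∧ C.B u u = 0} =
      {u | u ∈ C.perp (W v) ⊓ C.perp (W w) ∧ C.B u u = 0} from Set.ext fun u =>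
        ⟨fun k => ⟨⟨k.1.1, k.2.1⟩, k.1.2⟩, fun k => ⟨⟨k.1.1, k.2⟩, k.1.2, k.2⟩⟩,
      Nat.cast_add, Nat.cast_add, c0 _ (by omega), c0 _ (by omega),
      c0 _ (by omega), add_zero, add_zero] at e2
    rw [Nat.cast_add, e2, add_zero, c0 _ (by rw [finrank_top]; omega)] at e1
    rw [e, e1]
  have h3 := (Matrix.isNilpotent_trace_of_isNilpotent (M := N) ⟨2, by rw [sq, hN]⟩).eq_zero
  simp only [N, Matrix.trace, Matrix.diag, Matrix.of_apply, Finset.sum_boole,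
    ← Set.ncard_coe_finset, Finset.coe_filter, Finset.mem_univ, true_and] at h3
  have e := congrArg (Nat.cast (R := F)) (Set.ncard_diff_singleton_add_one
    (s := {u | u ∈ (⊤ : Submodule F V) ∧ C.B u u = 0}) (a := 0) (by simp))
  rw [c0 _ (by rw [finrank_top]; omega), Nat.cast_add, show {u | u ∈ (⊤ : Submodule F V) ∧
    C.B u u = 0} \ {0} = {v | Is C v ∧ C.B v v = 0 ∧ v ∉ C.perp (W v)} from Set.ext fun v =>
      ⟨fun k => ⟨⟨k.2, k.1.2⟩, k.1.2, (h1 v ⟨k.2, k.1.2⟩).2.2⟩, fun k => ⟨⟨trivial, k.2.1⟩, k.1.1⟩⟩,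
    h3] at e
  simp at e

theorem iie : IIE C H := by
  intro un pp hi e1
  obtain ⟨h2, g, hg, a, b, iv, ba, ab, ia, ib⟩ := hasI_norm hi
  have : ∀ v, Is C v → ∃ w, ∃ k ∈ H, Iv C k v w := fun v hv => by
    obtain ⟨k, hk, c, hc, e⟩ := (pp a v ia hv).ex ia.1
    obtain ⟨w, hw, -⟩ := (un.iv_conj iv k).at (v := v) ((Submodule.smul_mem_iff _ hc).1
      (e ▸ l_ln)) hv
    exact ⟨w, _, H.mul_mem (H.mul_mem hk hg) (H.inv_mem hk), hw⟩
  choose! w k hk iw using this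
  refine sph un.toGe (fun v => ln F v (w v)) (fun v hv => ⟨l_ln,
    (ind_of_ne hv.2 (iw v hv).2.2.1).finrank, fun n =>
      (iw v hv).2.2.1 (Bsw (mem_pp_ln.1 n).2)⟩) fun v y hv hy n => ln_le.2 ⟨n, ?_⟩
  obtain ⟨y1, y2⟩ := mem_pp_ln.1 n
  have i1 := iw v hv
  have i2 := un.iv_conj (iw y hy) (k v)
  rw [i1.fix n] at i2
  have e := un.iv_uniq h2 (e1 y hy) (hk y hy)
    (H.mul_mem (H.mul_mem (hk v hv) (hk y hy)) (H.inv_mem (hk v hv))) (iw y hy) i2
  obtain ⟨α, β, hab⟩ := mem_ln.1 (sub_mem r_ln (e ▸ r_ln : k v • w y ∈ ln F y (w y)))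
  rw [i1.apply] at hab
  have n0 := i1.2.2.1
  have n1 : C.B (w v) v ≠ 0 := fun m => n0 (Bsw m)
  have b0 : β = 0 := by
    have := congrArg (C.B y) hab
    simpa [hy.2, Bsw y1, Bsw y2, (iw y hy).2.2.1] using this
  refine mem_pp_ln.2 ⟨?_, ?_⟩
  · simpa [b0, y1, hv.2, n0, h2] using congrArg (C.B v) hab
  · simpa [b0, y2, i1.2.1, n1, h2] using congrArg (C.B (w v)) hab

theorem ii : II C H := by
  intro un pp nt ir hi
  have tr : ∀ x y, Is C x → Is C y → ∃ k ∈ H, ∃ c : F, c ≠ 0 ∧ k • x = c • y ∧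
      ∀ s ∈ Sx C H x, s ∉ F ∙ x → frob hF c • k • s ∈ Sx C H y ∧ frob hF c • k • s ∉ F ∙ y :=
    fun x y hx hy => by
      obtain ⟨k, hk, c, hc, e⟩ := (pp x y hx hy).ex hx.1
      refine ⟨k, hk, c, hc, e, fun s h1 h2 => ⟨sx_sml.1 (e ▸ un.sx_conj hk h1), fun n => h2 ?_⟩⟩
      rw [Submodule.smul_mem_iff _ (fr_ne hc), ← Submodule.span_singleton_smul_eq hc.isUnit, ← e] at n
      exact smul_mem_sp_iff.1 n
  by_cases e1 : ∀ x, Is C x → ∀ s ∈ Sx C H x, s ∈ F ∙ x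
  · exact iie un pp hi e1
  by_cases e2 : ∀ x, Is C x → ∀ s ∈ Sx C H x, C.B s s = 0 → s ∈ F ∙ x
  · push Not at e1
    obtain ⟨x, hx, s, h1, h2⟩ := e1
    refine iib un pp hi (fun y hy => ?_) e2
    obtain ⟨k, -, c, -, -, h⟩ := tr x y hx hy
    exact ⟨_, h s h1 h2⟩
  push Not at e2
  obtain ⟨x, hx, s, h1, h2, h3⟩ := e2
  have gx : ∀ x y, Is C x → Is C y → ∃ k : G, ∃ c : F, c ≠ 0 ∧ k • x = c • y ∧
      ∀ v, k • v ∈ GX C H y ↔ v ∈ GX C H x := fun x y hx hy => by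
    obtain ⟨k, hk, c, hc, e, -⟩ := tr x y hx hy
    refine ⟨k, c, hc, e, fun v => ⟨fun h => ?_, fun h => ?_⟩⟩
    · rw [← un.gx_sml hc, ← e] at h
      simpa using un.gx_conj (H.inv_mem hk) h
    · rw [← un.gx_sml hc, ← e]
      exact un.gx_conj hk h
  have al := ir x hx (GX C H x) (Submodule.subset_span ⟨sx_sp hx.2
    (Submodule.mem_span_singleton_self x), hx.2⟩)
    (fun v hv => (Submodule.span_le.2 (fun s hs => mem_pp_sp.2 hs.1.1) :
      GX C H x ≤ C.perp (F ∙ x)) hv x (Submodule.mem_span_singleton_self x))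
    (fun h hh e v hv => e ▸ un.gx_conj hh hv)
    (Submodule.span_mono fun s hs => ⟨Submodule.subset_span hs, hs.2⟩)
    fun e => h3 (e ▸ Submodule.subset_span ⟨h1, h2⟩)
  have pv : ∀ y, Is C y → ∃ k : G, ∃ c : F, c ≠ 0 ∧ k • y = c • x ∧
      (∀ v, k • v ∈ GX C H x ↔ v ∈ GX C H y) ∧
      ∀ v, k • v ∈ C.perp (GX C H x) ↔ v ∈ C.perp (GX C H y) := fun y hy => by
    obtain ⟨k, c, hc, e, h⟩ := gx y x hy hx
    refine ⟨k, c, hc, e, h, fun v => ⟨fun m w hw => ?_, fun m w hw => ?_⟩⟩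
    · rw [← un.iso k]; exact m _ ((h w).2 hw)
    · rw [un.iso_r]; exact m _ ((h _).1 (by simpa using hw))
  obtain al | al := al
  · refine iim un nt hi fun y hy => ?_
    obtain ⟨k, c, hc, e, m1, m2⟩ := pv y hy
    exact ⟨fun v hv => (m2 v).1 (al.1 ((m1 v).2 hv)),
      fun v hv n => (m1 v).1 (al.2 _ ((m2 v).2 hv) (by rw [un.iso, n]))⟩
  · refine iia un nt hi fun y hy v hv n => ?_
    obtain ⟨k, c, hc, e, m1, m2⟩ := pv y hy
    have := al _ ((m2 v).2 hv) (by rw [un.iso, n])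
    rw [← Submodule.span_singleton_smul_eq hc.isUnit, ← e] at this
    exact smul_mem_sp_iff.1 this

end H14.RU
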