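/-
S5806, chunks [FL] [CL]: 2-subgroups of `Sp₆` in characteristic two.
-/
import Cfsg.Agent.H6.SP2
import Cfsg.Agent.H13.Wt1
import Cfsg.Agent.S0749

set_option autoImplicit false
set_option linter.unusedSectionVars false

namespace H14.S6
open Matrix Cfsg Module Submodule H6.SP H11.SP
open scoped commutatorElement

variable {k : Type*} [Field k] [CharP k 2] {S : Subgroup (G6 k)}

theorem step [Finite S] (hS : IsPGroup 2 S) {X W : Submodule k (V6 k)} (hX : ∀ t ∈ S, ∀ x ∈ X, t.val *ᵥ x ∈ X)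
    (hW : ∀ t ∈ S, ∀ x ∈ W, t.val *ᵥ x ∈ W) (h : ¬ W ≤ X) : ∃ w ∈ W, w ∉ X ∧ ∀ t ∈ S, t.val *ᵥ w - w ∈ X := by
  let σ : Representation k S (V6 k) := ((toLinAlgEquiv').toMonoidHom.comp (Units.coeHom _)).comp S.subtype
  obtain ⟨u, hu, h0⟩ := SetLike.not_le_iff_exists.1 h
  obtain ⟨_, ⟨w, hw, rfl⟩, h1, h2⟩ := H13.Wt.ex_fix (σ.quotient X fun a x hx => hX a a.2 x hx) ⊤ (hS.to_subgroup _)
    (W.map X.mkQ) (by rintro t - _ ⟨w, hw, rfl⟩; exact ⟨_, hW t t.2 w hw, rfl⟩) ⟨u, hu, rfl⟩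
    (mt (Submodule.Quotient.mk_eq_zero X).1 h0)
  exact ⟨w, hw, mt (Submodule.Quotient.mk_eq_zero X).2 h1, fun t ht => (Submodule.Quotient.eq X).1 (h2 ⟨t, ht⟩ trivial)⟩

theorem pp {ι : Type*} {v : ι → V6 k} {x y : V6 k} (h : ∀ i, fm (v i) x = 0) (hy : y ∈ span k (Set.range v)) : fm y x = 0 := by
  rw [fm_sy]
  exact (span_le (p := LinearMap.ker (fl x))).2 (by rintro _ ⟨i, rfl⟩; exact (fm_sy _ _).trans (h i)) hy

theorem flag [Finite S] (hS : IsPGroup 2 S) (sp : S ≤ S6 k) (m : ℕ) (hm : m ≤ 3) : ∃ v : Fin m → V6 k,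
    LinearIndependent k v ∧ (∀ i j, fm (v i) (v j) = 0) ∧ ∀ t ∈ S, ∀ j, t.val *ᵥ v j - v j ∈ span k (v '' {i | i < j}) := by
  induction m with
  | zero => exact ⟨Fin.elim0, linearIndependent_empty_type, fun j => j.elim0, fun _ _ j => j.elim0⟩
  | succ m ih =>
    obtain ⟨v, h1, h0, h2⟩ := ih (by omega)
    have iv : ∀ t ∈ S, ∀ j, t.val *ᵥ v j ∈ span k (Set.range v) := fun t ht j => by
      rw [← sub_add_cancel (_ *ᵥ _) (v j)]
      exact add_mem (span_mono (Set.image_subset_range _ _) (h2 t ht j)) (subset_span ⟨j, rfl⟩)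
    obtain ⟨w, h5, h3, h4⟩ := step hS (X := span k (Set.range v)) (W := LinearMap.ker (LinearMap.pi fun i => fl (v i)))
      (fun t ht x hx => (span_le (p := (span k (Set.range v)).comap (toLin' t.val))).2
        (by rintro _ ⟨j, rfl⟩; exact iv t ht j) hx)
      (fun t ht x hx => funext fun i => (fm_inv (sp ht) _ _).symm.trans (pp (congrFun hx) (iv _ (inv_mem ht) i))) fun e => by
        have a := finrank_mono e
        have b := (LinearMap.pi fun i => fl (v i)).finrank_range_add_finrank_ker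
        have c := (LinearMap.range (LinearMap.pi fun i => fl (v i))).finrank_le
        rw [finrank_span_eq_card h1] at a
        simp at a b c; omega
    refine ⟨Fin.snoc v w, linearIndependent_finSnoc.2 ⟨h1, h3⟩, fun i j => ?_, fun t ht j => ?_⟩
    · have : ∀ i, fm (v i) w = 0 := congrFun h5
      refine Fin.lastCases ?_ (fun i => ?_) i <;> refine Fin.lastCases ?_ (fun j => ?_) j <;> simp [h0, this, fm_sy w]
    refine Fin.lastCases ?_ (fun j => ?_) j
    · rw [Fin.snoc_last]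
      refine span_mono ?_ (h4 t ht)
      rintro _ ⟨i, rfl⟩
      exact ⟨i.castSucc, Fin.castSucc_lt_last i, by simp⟩
    · rw [Fin.snoc_castSucc]
      refine span_mono ?_ (h2 t ht j)
      rintro _ ⟨i, hi, rfl⟩
      exact ⟨i.castSucc, Fin.castSucc_lt_castSucc_iff.2 hi, by simp⟩

theorem fl' [Finite S] (hS : IsPGroup 2 S) (sp : S ≤ S6 k) : ∃ g ∈ S6 k, ∀ s ∈ S, Ut (g * s * g⁻¹) := by
  obtain ⟨v, h1, h0, h2⟩ := flag hS sp 3 le_rfl
  let e : Fin 3 → V6 k := fun i => Pi.single (.inl i) 1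
  have he : LinearIndependent k e := (Pi.linearIndependent_single_one I6 k).comp _ Sum.inl_injective
  have e0 : ∀ i j, fm (e i) (e j) = 0 := fun i j => by simp [fm_ap, e]
  let B : LinearMap.BilinForm k (V6 k) := LinearMap.mk₂ k fm fm_add_l fm_smul_l (fun _ _ _ => fm_add_r ..) fun _ _ _ => fm_smul_r ..
  have z : ∀ {v : Fin 3 → V6 k}, (∀ i j, fm (v i) (v j) = 0) → ∀ x y : span k (Set.range v), fm x.1 y.1 = 0 := fun h x y =>
    pp (fun i => (fm_sy _ _).trans (pp (h · i) y.2)) x.2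
  obtain ⟨g, g1, g2⟩ := Agent.S0749.result B ⟨fun _ => fm_nd, fun _ => fm_nd'⟩ fm_self _ _
    ((Basis.span h1).equiv (Basis.span he) (Equiv.refl _)) fun x y => (z e0 _ _).trans (z h0 _ _).symm
  let γ : G6 k := ⟨LinearMap.toMatrix' g.toLinearMap, LinearMap.toMatrix' g.symm.toLinearMap,
    by rw [← LinearMap.toMatrix'_mul]; simp [Module.End.mul_eq_comp], by rw [← LinearMap.toMatrix'_mul]; simp [Module.End.mul_eq_comp]⟩
  have hγ : ∀ x, γ.val *ᵥ x = g x := LinearMap.toMatrix'_mulVec _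
  have m : γ ∈ S6 k := mem_S6.2 fun x y => by rw [hγ, hγ]; exact g1 x y
  have gv : ∀ i, γ.val *ᵥ v i = e i := fun i => by
    have := g2 (Basis.span h1 i)
    rwa [Basis.equiv_apply, Basis.span_apply, Basis.span_apply, ← hγ] at this
  have c : ∀ s ∈ S, ∀ j r, ps (.inl j) ≤ ps r → ((γ * s * γ⁻¹).val *ᵥ e j - e j) r = 0 := fun s hs j r h => by
    rw [← gv, mul_mv, mul_mv, inv_mv, ← mulVec_sub]
    refine (span_le (p := LinearMap.ker (LinearMap.proj r ∘ₗ toLin' γ.val))).2 ?_ (h2 s hs j)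
    rintro _ ⟨i, hi, rfl⟩
    refine (congrFun (gv i) r).trans (Pi.single_eq_of_ne (fun a => ?_) _)
    subst a; exact absurd hi (not_lt.2 (Fin.le_def.2 h))
  refine ⟨γ, m, fun s hs r t h => ?_⟩
  rcases t with j | j
  · simpa [e, Matrix.sub_apply, one_apply, Pi.single_apply] using c s hs j r h
  rcases r with i | i
  · simp [ps] at h; omega
  have := c _ (inv_mem hs) i (.inl j) (by simp [ps] at h ⊢; omega)
  have a := fm_inv (mul_mem (mul_mem m (sp hs)) (inv_mem m)) (e i) (Pi.single (.inr j) 1)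
  rw [fm_sy, fm_sy (e i), show (γ * s * γ⁻¹)⁻¹ = γ * s⁻¹ * γ⁻¹ by group] at a
  simp [fm_ap, e, Pi.single_apply] at a this
  simp [Matrix.sub_apply, one_apply, ← a, eq_comm (a := i), this]

theorem fl : FL := fun _ _ _ _ sp _ h => fl' h sp

/-- coordinates on a group of unitriangular symplectic matrices -/
structure Co (Γ k : Type*) [Group Γ] [Field k] where
  (a b d p q r s t c : Γ → k)
  ha : ∀ x y, a (x * y) = a x + a y
  hb : ∀ x y, b (x * y) = b x + b y
  hc : ∀ x y, c (x * y) = c x + c y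
  hd : ∀ x y, d (x * y) = d x + d y + a x * b y
  ht : ∀ x y, t (x * y) = t x + t y + b x * c y
  hs : ∀ x y, s (x * y) = s x + s y + b x ^ 2 * c y
  hr : ∀ x y, r (x * y) = r x + r y + a x * t y + d x * c y
  hq : ∀ x y, q (x * y) = q x + q y + b x * r y + a x * (s y + b x * t y) + d x * (t y + b x * c y)
  hp : ∀ x y, p (x * y) = p x + p y + a x ^ 2 * s y + d x ^ 2 * c y
  one : ∀ x, a x = 0 → b x = 0 → d x = 0 → p x = 0 → s x = 0 → c x = 0 → x = 1

namespace Co
variable {Γ : Type*} [Group Γ] (C : Co Γ k)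

theorem cm (w z : Γ) (h1 : C.a w * C.b z = C.a z * C.b w) (h2 : C.b w ^ 2 * C.c z = C.b z ^ 2 * C.c w)
    (h3 : C.a w ^ 2 * C.s z + C.d w ^ 2 * C.c z = C.a z ^ 2 * C.s w + C.d z ^ 2 * C.c w) : Commute w z := by
  have e : ⁅w, z⁆ * (z * w) = w * z := by rw [commutatorElement_def]; group
  have a := congrArg C.a e; have b := congrArg C.b e; have c := congrArg C.c e
  have d := congrArg C.d e; have s := congrArg C.s e; have p := congrArg C.p e
  simp only [C.ha, C.hb, C.hc, C.hd, C.hs, C.hp] at a b c d s p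
  have a : C.a ⁅w, z⁆ = 0 := by linear_combination a
  have b : C.b ⁅w, z⁆ = 0 := by linear_combination b
  rw [a] at d p; rw [b] at s
  have d : C.d ⁅w, z⁆ = 0 := by linear_combination d + h1
  rw [d] at p
  exact commutatorElement_eq_one_iff_commute.1 (C.one _ a b d (by linear_combination p + h3) (by linear_combination s + h2)
    (by linear_combination c))

theorem val (w z : Γ) : C.a ⁅w, z⁆ = 0 ∧ C.b ⁅w, z⁆ = 0 ∧ C.c ⁅w, z⁆ = 0 ∧ C.d ⁅w, z⁆ = C.a w * C.b z - C.a z * C.b w ∧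
    C.s ⁅w, z⁆ = C.b w ^ 2 * C.c z - C.b z ^ 2 * C.c w ∧ C.t ⁅w, z⁆ = C.b w * C.c z - C.b z * C.c w ∧
    C.r ⁅w, z⁆ + C.d ⁅w, z⁆ * (C.c z + C.c w) = C.a w * C.t z + C.d w * C.c z - (C.a z * C.t w + C.d z * C.c w) := by
  have e : ⁅w, z⁆ * (z * w) = w * z := by rw [commutatorElement_def]; group
  have a := congrArg C.a e; have b := congrArg C.b e; have c := congrArg C.c e
  have d := congrArg C.d e; have s := congrArg C.s e; have t := congrArg C.t e; have r := congrArg C.r e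
  simp only [C.ha, C.hb, C.hc, C.hd, C.hs, C.ht, C.hr] at a b c d s t r
  have a : C.a ⁅w, z⁆ = 0 := by linear_combination a
  have b : C.b ⁅w, z⁆ = 0 := by linear_combination b
  rw [a] at d r; rw [b] at s t
  exact ⟨a, b, by linear_combination c, by linear_combination d, by linear_combination s, by linear_combination t,
    by linear_combination r⟩

theorem cz (x : Γ) (ha : C.a x ≠ 0) (hb : C.b x ≠ 0) (z : Γ) : C.c z = 0 := by
  have T := two (k := k)
  have a : C.a (x * x) = 0 := by rw [C.ha, aa]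
  have b : C.b (x * x) = 0 := by rw [C.hb, aa]
  have c : C.c (x * x) = 0 := by rw [C.hc, aa]
  have d : C.d (x * x) = C.a x * C.b x := by rw [C.hd, aa, zero_add]
  have t : C.t (x * x) = C.b x * C.c x := by rw [C.ht, aa, zero_add]
  have s : C.s (x * x) = C.b x ^ 2 * C.c x := by rw [C.hs, aa, zero_add]
  have o : x * x * (x * x) = 1 := C.one _ (by rw [C.ha, aa]) (by rw [C.hb, aa]) (by rw [C.hd, aa, a]; ring)
    (by rw [C.hp, aa, a, c]; ring) (by rw [C.hs, aa, c]; ring) (by rw [C.hc, aa])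
  have q := congrArg C.q (show x * x * (x * x) * (x * x * (x * x)) = x * x * (x * x) by rw [o, mul_one])
  rw [C.hq, aa, C.ha, aa, C.hb, aa, C.hd, aa, a, C.hq (x * x), aa, a, b, d, t] at q
  have cx : C.c x = 0 := by simpa [ha, hb] using q.symm
  obtain ⟨a', b', c', d', s', t', r'⟩ := C.val z (x * x)
  simp only [a, b, c, d, s, t, cx, mul_zero, zero_mul, sub_zero, zero_pow two_ne_zero] at d' s' t' r'
  have q := congrArg C.q (C.cm ⁅z, x * x⁆ x (by simp [*]) (by simp [*]) (by simp [*])).eq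
  rw [C.hq, C.hq, a', b', c', d', s', t'] at q
  rw [d'] at r'
  have : C.b x * (C.a x * C.b x * C.c z) = 0 := by linear_combination q + C.b x * r'
  simpa [ha, hb] using this

include C in
theorem cl (x y z : Γ) : Commute ⁅x, y⁆ z := by
  obtain ⟨a, b, c, d, s, t, -⟩ := C.val x y
  by_cases ha : ∀ x, C.a x = 0
  · exact C.cm _ _ (by simp [*]) (by simp [*]) (by simp [*])
  by_cases hb : ∀ x, C.b x = 0
  · exact C.cm _ _ (by simp [*]) (by simp [*]) (by simp [*])
  obtain ⟨u, hu⟩ := not_forall.1 ha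
  obtain ⟨v, hv⟩ := not_forall.1 hb
  have : ∀ z, C.c z = 0 := by
    by_cases h : C.b u = 0
    · by_cases h' : C.a v = 0
      · exact C.cz (u * v) (by simpa [C.ha, h']) (by simpa [C.hb, h])
      · exact C.cz v h' hv
    · exact C.cz u hu h
  exact C.cm _ _ (by simp [*]) (by simp [*]) (by simp [*])
end Co

def bA (g : G6 k) : Matrix (Fin 3) (Fin 3) k := g.val.toBlocks₁₁
def bT (g : G6 k) : Matrix (Fin 3) (Fin 3) k := g.val.toBlocks₁₂ * g.val.toBlocks₁₁ᵀ

theorem blk {g : G6 k} (h : g ∈ S6 k) (u : Ut g) : g.val.toBlocks₂₁ = 0 ∧ g.val.toBlocks₂₂ * (bA g)ᵀ = 1 ∧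
    bA g = !![1, bA g 0 1, bA g 0 2; 0, 1, bA g 1 2; 0, 0, 1] ∧
    bT g = !![bT g 0 0, bT g 0 1, bT g 0 2; bT g 0 1, bT g 1 1, bT g 1 2; bT g 0 2, bT g 1 2, bT g 2 2] := by
  have z : g.val.toBlocks₂₁ = 0 := by
    ext i j; simpa [toBlocks₂₁] using u (.inr i) (.inl j) (by simp [ps]; omega)
  have a := SymplecticGroup.mem_iff.1 (SymplecticGroup.mem_iff'.2 (mem_J.1 h))
  rw [← fromBlocks_toBlocks g.val, z, J, fromBlocks_transpose, fromBlocks_multiply, fromBlocks_multiply, fromBlocks_inj] at a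
  have s : (bT g)ᵀ = bT g := by
    rw [bT, transpose_mul, transpose_transpose]; simpa [add_neg_eq_zero, eq_comm] using a.1
  refine ⟨z, by simpa [bA] using a.2.2.1, ?_, ?_⟩
  · ext i j
    have := u (.inl i) (.inl j)
    fin_cases i <;> fin_cases j <;> first | rfl | simpa [ps, sub_eq_zero, bA, toBlocks₁₁] using this
  · ext i j
    fin_cases i <;> fin_cases j <;> first | rfl | exact (congrFun (congrFun s _) _).symm

theorem bmul {g h : G6 k} (m : h ∈ S6 k) (u : Ut h) : bA (g * h) = bA g * bA h ∧ bT (g * h) = bT g + bA g * bT h * (bA g)ᵀ := by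
  obtain ⟨z, d, -⟩ := blk m u
  have := Units.val_mul g h
  rw [← fromBlocks_toBlocks g.val, ← fromBlocks_toBlocks h.val, z, fromBlocks_multiply] at this
  simp only [bA, bT, this, toBlocks_fromBlocks₁₁, toBlocks_fromBlocks₁₂, Matrix.mul_zero, add_zero, transpose_mul] at d ⊢
  refine ⟨trivial, ?_⟩
  rw [Matrix.add_mul, Matrix.mul_assoc g.val.toBlocks₁₂, ← Matrix.mul_assoc h.val.toBlocks₂₂, d, Matrix.one_mul, add_comm]
  simp only [Matrix.mul_assoc]

theorem N_ap (u w : V6 k) (s t : I6) : N u w s t = fm (Pi.single t 1) w * u s + fm (Pi.single t 1) u * w s := by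
  simpa using congrFun (N_mv u w (Pi.single t 1)) s

theorem alt (h : ¬ T0 S) {g : G6 k} (hg : g ∈ S) {q r t : k}
    (e : g.val = fromBlocks 1 !![0, q, r; q, 0, t; r, t, 0] 0 1) : g = 1 := by
  obtain ⟨u, w, a⟩ : ∃ u w : Fin 3 → k, vecMulVec u w + vecMulVec w u = !![0, q, r; q, 0, t; r, t, 0] := by
    by_cases hq : q = 0
    · exact ⟨![0, 0, 1], ![r, t, 0], by ext i j; fin_cases i <;> fin_cases j <;> simp [hq, vecMulVec_apply]⟩
    · exact ⟨![1, 0, t / q], ![0, q, r], by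
        ext i j; fin_cases i <;> fin_cases j <;> simp [hq, vecMulVec_apply, aa, mul_div_cancel₀, mul_comm r]⟩
  have b : g.val = 1 + N (Sum.elim u 0) (Sum.elim w 0) := by
    rw [e, ← a]
    ext (i | i) (j | j) <;> simp [N_ap, fm_ap, one_apply, Pi.single_apply, vecMulVec_apply, mul_comm]
  by_contra n
  exact h ⟨_, _, by simp [fm_ap], fun z => n (Units.ext (by rw [b, z, add_zero]; rfl)), g, hg, b⟩

def co (sp : S ≤ S6 k) (u : ∀ s ∈ S, Ut s) (h : ¬ T0 S) : Co S k :=
  have m := fun x y : S => bmul (g := x.1) (sp y.2) (u _ y.2)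
  have A := fun x : S => (blk (sp x.2) (u _ x.2)).2.2.1
  have B := fun x : S => (blk (sp x.2) (u _ x.2)).2.2.2
  have T := two (k := k)
  { a x := bA x.1 0 1, b x := bA x.1 1 2, d x := bA x.1 0 2, p x := bT x.1 0 0, q x := bT x.1 0 1, r x := bT x.1 0 2
    s x := bT x.1 1 1, t x := bT x.1 1 2, c x := bT x.1 2 2
    ha x y := by rw [Subgroup.coe_mul, (m x y).1, A x, A y]; simp [add_comm]
    hb x y := by rw [Subgroup.coe_mul, (m x y).1, A x, A y]; simp [add_comm]
    hd x y := by rw [Subgroup.coe_mul, (m x y).1, A x, A y]; simp; ring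
    hc x y := by rw [Subgroup.coe_mul, (m x y).2, A x, B y]; simp [Matrix.mul_apply, Fin.sum_univ_three, vecMul, dotProduct]
    ht x y := by rw [Subgroup.coe_mul, (m x y).2, A x, B y]; simp [Matrix.mul_apply, Fin.sum_univ_three, vecMul, dotProduct]; ring
    hs x y := by
      rw [Subgroup.coe_mul, (m x y).2, A x, B y]; simp [Matrix.mul_apply, Fin.sum_univ_three, vecMul, dotProduct]
      linear_combination bA x.1 1 2 * bT y.1 1 2 * T
    hr x y := by rw [Subgroup.coe_mul, (m x y).2, A x, B y]; simp [Matrix.mul_apply, Fin.sum_univ_three, vecMul, dotProduct]; ring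
    hq x y := by rw [Subgroup.coe_mul, (m x y).2, A x, B y]; simp [Matrix.mul_apply, Fin.sum_univ_three, vecMul, dotProduct]; ring
    hp x y := by
      rw [Subgroup.coe_mul, (m x y).2, A x, B y]; simp [Matrix.mul_apply, Fin.sum_univ_three, vecMul, dotProduct]
      linear_combination (bA x.1 0 1 * bT y.1 0 1 + bA x.1 0 2 * bT y.1 0 2 + bA x.1 0 1 * bA x.1 0 2 * bT y.1 1 2) * T
    one x a b d p s c := by
      obtain ⟨z, D, A, B⟩ := blk (sp x.2) (u _ x.2)
      rw [a, b, d, ← one_fin_three] at A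
      rw [p, s, c] at B
      rw [A, transpose_one, Matrix.mul_one] at D
      refine Subtype.ext (alt h x.2 (q := bT x.1 0 1) (r := bT x.1 0 2) (t := bT x.1 1 2) ?_)
      rw [← B, ← fromBlocks_toBlocks x.1.val, z, D, bT, show x.1.val.toBlocks₁₁ = 1 from A]; simp }

theorem cl : CL := fun _ _ _ _ _ sp u _ h x hx y hy z hz =>
  congrArg Subtype.val ((co sp u h).cl ⟨x, hx⟩ ⟨y, hy⟩ ⟨z, hz⟩).eq

end H14.S6
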